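import Cfsg.Agent.H932.ThreeTI

/-!
Linear algebra for `O₃ ⊗ O₄⁻`: involutions `k ⊗ l` with a fixed space of dimension four; multipliers of
similarities of three-dimensional spaces are squares.
-/

set_option autoImplicit false
set_option linter.unusedSimpArgs false
set_option linter.unusedSectionVars false

namespace Cfsg.Agent.H932.Three

open QuadraticMap hiding proj
open Cfsg.Agent.LieClassical.OrthCore Cfsg.Agent.LieClassical.OrthTrans Cfsg.Agent.H883.Root
open Cfsg.Agent Cfsg.Agent.H882.Ten

variable {F : Type*} {U : Type*} {W : Type*} {V : Type*} [Field F] [AddCommGroup U] [Module F U]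
  [AddCommGroup W] [Module F W] [AddCommGroup V] [Module F V]
  {t : U →ₗ[F] W →ₗ[F] V}

/-- fixed space of `ε l` -/
def fx (l : W ≃ₗ[F] W) (ε : F) : Submodule F W := LinearMap.ker (ε • (l : W →ₗ[F] W) - LinearMap.id)

theorem mem_fx {l : W ≃ₗ[F] W} {ε : F} {w : W} : w ∈ fx l ε ↔ ε • l w = w := by
  rw [fx, LinearMap.mem_ker, LinearMap.sub_apply, sub_eq_zero]; rfl

theorem fx_compl (h2 : (2 : F) ≠ 0) {l : W ≃ₗ[F] W} (hl : ∀ w, l (l w) = w) : IsCompl (fx l 1) (fx l (-1)) := by
  constructor
  · rw [Submodule.disjoint_def]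
    intro x hx hx'
    rw [mem_fx, one_smul] at hx
    rw [mem_fx, neg_smul, one_smul, hx] at hx'
    have : (2 : F) • x = 0 := by
      rw [two_smul]
      nth_rewrite 1 [← hx']
      exact neg_add_cancel x
    exact (smul_eq_zero.1 this).resolve_left h2
  · rw [codisjoint_iff, eq_top_iff]
    intro x _
    rw [Submodule.mem_sup]
    refine ⟨(2 : F)⁻¹ • (x + l x), ?_, (2 : F)⁻¹ • (x - l x), ?_, ?_⟩
    · rw [mem_fx, one_smul, map_smul, map_add, hl, add_comm]
    · rw [mem_fx, neg_smul, one_smul, map_smul, map_sub, hl, ← smul_neg, neg_sub]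
    · rw [← smul_add]
      have : x + l x + (x - l x) = (2 : F) • x := by rw [two_smul]; abel
      rw [this, smul_smul, inv_mul_cancel₀ h2, one_smul]

/-- An involution of a three-dimensional space has a basis of eigenvectors. -/
theorem exists_eigenbasis (h2 : (2 : F) ≠ 0) (d3 : Module.finrank F U = 3) {k : U ≃ₗ[F] U}
    (hk : ∀ u, k (k u) = u) :
    ∃ (b : Module.Basis (Fin 3) F U) (ε : Fin 3 → F), (∀ i, k (b i) = ε i • b i) ∧ ∀ i, ε i = 1 ∨ ε i = -1 := by
  have hfin : FiniteDimensional F U := Module.finite_of_finrank_pos (by omega)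
  have hc := fx_compl h2 hk
  let b1 := Module.finBasis F (fx k 1)
  let b2 := Module.finBasis F (fx k (-1))
  let b0 := (b1.prod b2).map (Submodule.prodEquivOfIsCompl _ _ hc)
  have hcard := Submodule.finrank_add_eq_of_isCompl hc
  rw [d3] at hcard
  let e : (Fin (Module.finrank F (fx k 1)) ⊕ Fin (Module.finrank F (fx k (-1)))) ≃ Fin 3 :=
    finSumFinEquiv.trans (finCongr hcard)
  let ε0 : (Fin (Module.finrank F (fx k 1)) ⊕ Fin (Module.finrank F (fx k (-1)))) → F :=
    Sum.elim (fun _ => 1) (fun _ => -1)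
  have key : ∀ i, k (b0 i) = ε0 i • b0 i := by
    rintro (i | i)
    · have e1 : b0 (Sum.inl i) = (b1 i : U) := by
        simp [b0]
      have h1 := mem_fx.1 (b1 i).2
      rw [e1, ← h1, one_smul, hk]
      show _ = (1 : F) • _
      rw [one_smul]
      nth_rewrite 1 [← h1]
      rw [one_smul]
    · have e1 : b0 (Sum.inr i) = (b2 i : U) := by
        simp [b0]
      have h1 := mem_fx.1 (b2 i).2
      rw [e1]
      show k (b2 i : U) = (-1 : F) • (b2 i : U)
      rw [neg_smul, one_smul] at h1
      rw [neg_smul, one_smul]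
      exact neg_eq_iff_eq_neg.1 h1
  refine ⟨b0.reindex e, fun i => ε0 (e.symm i), fun i => ?_, fun i => ?_⟩
  · rw [Module.Basis.reindex_apply]
    exact key _
  · show ε0 (e.symm i) = 1 ∨ ε0 (e.symm i) = -1
    rcases e.symm i with j | j
    · left; rfl
    · right; rfl

/-- `v = Σ t (b i) (contraction)`. -/
theorem sum_coord (ht : IsTensorProduct t) (b : Module.Basis (Fin 3) F U) (v : V) :
    v = ∑ i, t (b i) (cU ht (b.coord i) v) := by
  have : (LinearMap.id : V →ₗ[F] V) = ∑ i, t (b i) ∘ₗ cU ht (b.coord i) := by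
    refine ext_t ht fun u w => ?_
    rw [LinearMap.id_apply, LinearMap.sum_apply]
    simp only [LinearMap.comp_apply, cU_apply, map_smul]
    conv_lhs => rw [← b.sum_repr u, map_sum, LinearMap.sum_apply]
    refine Finset.sum_congr rfl fun i _ => ?_
    rw [map_smul, LinearMap.smul_apply]; rfl
  have h := LinearMap.congr_fun this v
  rw [LinearMap.id_apply, LinearMap.sum_apply] at h
  exact h

theorem cU_tm (ht : IsTensorProduct t) (b : Module.Basis (Fin 3) F U) {ε : Fin 3 → F} {k : U ≃ₗ[F] U}
    (hk : ∀ i, k (b i) = ε i • b i) (l : W ≃ₗ[F] W) (i : Fin 3) (v : V) :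
    cU ht (b.coord i) (tm ht k l v) = ε i • l (cU ht (b.coord i) v) := by
  have hc : ∀ u, b.coord i (k u) = ε i * b.coord i u := by
    intro u
    have : (b.coord i) ∘ₗ (k : U →ₗ[F] U) = ε i • b.coord i := by
      refine b.ext fun j => ?_
      rw [LinearMap.comp_apply, LinearEquiv.coe_coe, hk, map_smul, LinearMap.smul_apply,
        Module.Basis.coord_apply, Module.Basis.repr_self]
      by_cases h : j = i
      · subst h; rfl
      · rw [Finsupp.single_eq_of_ne (Ne.symm h)]; simp
    exact LinearMap.congr_fun this u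
  have : cU ht (b.coord i) ∘ₗ (tm ht k l : V →ₗ[F] V) = ε i • ((l : W →ₗ[F] W) ∘ₗ cU ht (b.coord i)) := by
    refine ext_t ht fun u w => ?_
    rw [LinearMap.comp_apply, LinearEquiv.coe_coe, tm_apply, cU_apply, hc, LinearMap.smul_apply,
      LinearMap.comp_apply, cU_apply, LinearEquiv.coe_coe, map_smul, smul_smul]
  exact LinearMap.congr_fun this v

/-- **The fixed space of an involution `k ⊗ l`.** -/
theorem finrank_fix (ht : IsTensorProduct t) [FiniteDimensional F W] (b : Module.Basis (Fin 3) F U)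
    {ε : Fin 3 → F} {k : U ≃ₗ[F] U}
    (hk : ∀ i, k (b i) = ε i • b i) (l : W ≃ₗ[F] W) :
    Module.finrank F (LinearMap.ker ((tm ht k l : V →ₗ[F] V) - LinearMap.id)) =
      ∑ i, Module.finrank F (fx l (ε i)) := by
  have hmem : ∀ v, v ∈ LinearMap.ker ((tm ht k l : V →ₗ[F] V) - LinearMap.id) ↔ tm ht k l v = v := by
    intro v
    rw [LinearMap.mem_ker, LinearMap.sub_apply, sub_eq_zero]; rfl
  have hsc : ∀ (w : Fin 3 → W) i, cU ht (b.coord i) (∑ j, t (b j) (w j)) = w i := by
    intro w i
    rw [map_sum, Finset.sum_eq_single i]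
    · rw [cU_apply, Module.Basis.coord_apply, Module.Basis.repr_self, Finsupp.single_eq_same, one_smul]
    · intro j _ hj
      rw [cU_apply, Module.Basis.coord_apply, Module.Basis.repr_self, Finsupp.single_eq_of_ne (Ne.symm hj),
        zero_smul]
    · intro h; exact absurd (Finset.mem_univ i) h
  let f : LinearMap.ker ((tm ht k l : V →ₗ[F] V) - LinearMap.id) →ₗ[F] (Π i, fx l (ε i)) :=
    LinearMap.pi fun i => (cU ht (b.coord i) ∘ₗ Submodule.subtype _).codRestrict (fx l (ε i)) (by
      intro v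
      rw [mem_fx]
      show ε i • l (cU ht (b.coord i) (v : V)) = cU ht (b.coord i) (v : V)
      rw [← cU_tm ht b hk, (hmem _).1 v.2])
  have hf : ∀ v i, ((f v i : fx l (ε i)) : W) = cU ht (b.coord i) (v : V) := fun v i => rfl
  have hinj : Function.Injective f := by
    intro v v' h
    apply Subtype.ext
    rw [sum_coord ht b (v : V), sum_coord ht b (v' : V)]
    refine Finset.sum_congr rfl fun i _ => ?_
    rw [← hf, ← hf, h]
  have hsurj : Function.Surjective f := by
    intro w
    refine ⟨⟨∑ j, t (b j) (w j : W), ?_⟩, ?_⟩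
    · rw [hmem, map_sum]
      refine Finset.sum_congr rfl fun i _ => ?_
      rw [tm_apply, hk, map_smul, LinearMap.smul_apply, ← map_smul, mem_fx.1 (w i).2]
    · funext i
      apply Subtype.ext
      rw [hf]
      exact hsc (fun j => (w j : W)) i
  rw [(LinearEquiv.ofBijective f ⟨hinj, hsurj⟩).finrank_eq, Module.finrank_pi_fintype]

theorem scalar_of_fix (ht : IsTensorProduct t) (h2 : (2 : F) ≠ 0) (d3 : Module.finrank F U = 3)
    (d4 : Module.finrank F W = 4) {k : U ≃ₗ[F] U} {l : W ≃ₗ[F] W} (h : ∀ v, tm ht k l (tm ht k l v) = v)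
    (hd : Module.finrank F (LinearMap.ker ((tm ht k l : V →ₗ[F] V) - LinearMap.id)) = 4) :
    ∃ c : F, ∀ w, l w = c • w := by
  have hfU : FiniteDimensional F U := Module.finite_of_finrank_pos (by omega)
  have hfW : FiniteDimensional F W := Module.finite_of_finrank_pos (by omega)
  have hnU : Nontrivial U := Module.nontrivial_of_finrank_pos (R := F) (by omega)
  have hnW : Nontrivial W := Module.nontrivial_of_finrank_pos (R := F) (by omega)
  have h1 : tm ht (k * k) (l * l) = 1 := by
    rw [tm_mul]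
    ext v
    exact h v
  obtain ⟨c, hc0, hkc, hlc⟩ := scalars_of_tm_eq_one ht h1
  -- `c` is a square
  have hdet : (LinearMap.det (k : U →ₗ[F] U)) ^ 2 = c ^ 3 := by
    have e1 : (k : U →ₗ[F] U) ∘ₗ (k : U →ₗ[F] U) = c • LinearMap.id := by
      ext u
      exact hkc u
    have e2 := congrArg LinearMap.det e1
    rw [LinearMap.det_comp, LinearMap.det_smul, LinearMap.det_id, d3, mul_one] at e2
    rw [pow_two, e2]
  set e : F := LinearMap.det (k : U →ₗ[F] U) * c⁻¹ with he
  have he2 : e * e = c := by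
    rw [he]
    field_simp
    linear_combination hdet
  have he0 : e ≠ 0 := by
    intro h0
    rw [h0, mul_zero] at he2
    exact hc0 he2.symm
  set k' := k * LinearEquiv.smulOfNeZero F U e⁻¹ (inv_ne_zero he0) with hk'
  set l' := l * LinearEquiv.smulOfNeZero F W e he0 with hl'
  have hT : tm ht k' l' = tm ht k l := tm_rescale ht k l he0
  have hkk : ∀ u, k' (k' u) = u := by
    intro u
    show k (e⁻¹ • k (e⁻¹ • u)) = u
    rw [map_smul, map_smul, map_smul]
    have : k (k u) = c • u := hkc u
    rw [this, smul_smul, smul_smul, ← he2]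
    have : e⁻¹ * e⁻¹ * (e * e) = 1 := by field_simp
    rw [this, one_smul]
  have hll : ∀ w, l' (l' w) = w := by
    intro w
    show l (e • l (e • w)) = w
    rw [map_smul, map_smul, map_smul]
    have : l (l w) = c⁻¹ • w := hlc w
    rw [this, smul_smul, smul_smul, ← he2]
    have : e * e * (e * e)⁻¹ = 1 := by field_simp
    rw [this, one_smul]
  obtain ⟨b, ε, hb, hε⟩ := exists_eigenbasis h2 d3 hkk
  rw [← hT, finrank_fix ht b hb, Fin.sum_univ_three] at hd
  have hcm := Submodule.finrank_add_eq_of_isCompl (fx_compl h2 hll)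
  rw [d4] at hcm
  set j := Module.finrank F (fx l' 1) with hj
  set m := Module.finrank F (fx l' (-1)) with hm
  have hjm : j = 0 ∨ m = 0 := by
    rcases hε 0 with h0 | h0 <;> rcases hε 1 with h1 | h1 <;> rcases hε 2 with h2 | h2 <;>
      rw [h0, h1, h2] at hd <;> simp only [← hj, ← hm] at hd <;> omega
  have htop : ∀ δ : F, Module.finrank F (fx l' δ) = 4 → ∀ w, δ • l' w = w := by
    intro δ hδ w
    have : fx l' δ = ⊤ := Submodule.eq_top_of_finrank_eq (by rw [hδ, d4])
    rw [← mem_fx, this]; trivial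
  have hlw : ∀ w, l' (e⁻¹ • w) = l w := by
    intro w
    show l (e • (e⁻¹ • w)) = l w
    rw [smul_smul, mul_inv_cancel₀ he0, one_smul]
  rcases hjm with h0 | h0
  · have h3 := htop (-1) (by rw [← hm]; omega)
    refine ⟨-e⁻¹, fun w => ?_⟩
    have h4 := h3 (e⁻¹ • w)
    rw [hlw, neg_smul, one_smul] at h4
    rw [neg_smul, ← h4, neg_neg]
  · have h3 := htop 1 (by rw [← hj]; omega)
    refine ⟨e⁻¹, fun w => ?_⟩
    have h4 := h3 (e⁻¹ • w)
    rw [hlw, one_smul] at h4
    exact h4

/-- The multiplier of a similarity of a three-dimensional space is a square. -/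
theorem sq_of_sim {R : QuadraticForm F U} (hR : Nondeg R) (d3 : Module.finrank F U = 3) {k : U ≃ₗ[F] U} {ν : F}
    (hk : ∀ x y, polar R (k x) (k y) = ν * polar R x y) : ∃ e : F, ν = e * e := by
  have hfU : FiniteDimensional F U := Module.finite_of_finrank_pos (by omega)
  let b : Module.Basis (Fin 3) F U := Module.finBasisOfFinrankEq F U d3
  let B : LinearMap.BilinForm F U := polarBilin R
  have hnd : B.Nondegenerate := Cfsg.Agent.H883.Sub.nondegenerate_of_nondeg hR
  have hG : (LinearMap.BilinForm.toMatrix b B).det ≠ 0 :=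
    (LinearMap.BilinForm.nondegenerate_iff_det_ne_zero b).1 hnd
  have h1 : B.comp (k : U →ₗ[F] U) (k : U →ₗ[F] U) = ν • B := by
    ext x y
    exact hk x y
  have h2 := congrArg (LinearMap.BilinForm.toMatrix b) h1
  rw [LinearMap.BilinForm.toMatrix_comp b b] at h2
  have h3 := congrArg Matrix.det h2
  rw [Matrix.det_mul, Matrix.det_mul, Matrix.det_transpose, map_smul, Matrix.det_smul, Fintype.card_fin] at h3
  set D := (LinearMap.toMatrix b b (k : U →ₗ[F] U)).det with hD
  have h4 : D * D = ν ^ 3 := by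
    apply mul_right_cancel₀ hG
    linear_combination h3
  by_cases hν : ν = 0
  · exact ⟨0, by rw [hν, mul_zero]⟩
  · refine ⟨D * ν⁻¹, ?_⟩
    field_simp
    linear_combination -h4

end Cfsg.Agent.H932.Three
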