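import Cfsg.Agent.H932.ThreeDim
import Cfsg.Agent.H882.Good

/-!
`O₃ ⊗ O₄⁻` in `Ω₁₂⁻(q)`, `q ≥ 5` odd: good elements and the end of the proof that a proper overgroup of the
tensor group is contained in the tensor group.
-/

set_option autoImplicit false
set_option linter.unusedSimpArgs false
set_option linter.unusedSectionVars false

namespace Cfsg.Agent.H932.Three

open QuadraticMap hiding proj
open Cfsg.Agent.LieClassical.OrthCore Cfsg.Agent.LieClassical.OrthTrans Cfsg.Agent.H883.Root
open Cfsg.Agent Cfsg.Agent.H882.Ten Cfsg.Agent.H882.Good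

variable {F : Type*} {U : Type*} {W : Type*} {V : Type*} [Field F] [AddCommGroup U] [Module F U]
  [AddCommGroup W] [Module F W] [AddCommGroup V] [Module F V]
  {t : U →ₗ[F] W →ₗ[F] V} {QU : QuadraticForm F U} {QW : QuadraticForm F W} {Q : QuadraticForm F V}
  {X : Subgroup (V ≃ₗ[F] V)} {S : TSt t QU QW Q}

section three

/-- Two orthogonal nonsingular vectors are members of an orthogonal triple. -/
theorem exists_OB2 {R : QuadraticForm F U} (hQ : Nondeg R) (h2 : (2 : F) ≠ 0) (d3 : 3 ≤ Module.finrank F U)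
    {a b : U} (ha : R a ≠ 0) (hb : R b ≠ 0) (hab : polar R a b = 0) : ∃ c, OB R a b c := by
  obtain ⟨c, hc, hac⟩ := exists_nonsing_of_perp hQ h2 ![a, b] (by
      intro i; fin_cases i
      · exact ha
      · exact hb)
    (by
      intro i j hij
      fin_cases i <;> fin_cases j
      · exact absurd rfl hij
      · exact hab
      · show polar R b a = 0
        rw [polar_comm]; exact hab
      · exact absurd rfl hij) (by omega)
  exact ⟨c, ha, hb, hc, hab, hac 0, hac 1⟩

/-- A `p`-element of `O₃(q)` fixing a nonsingular vector is trivial. -/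
theorem eq_one_of_fix [Finite F] {R : QuadraticForm F U} (hR : Nondeg R) (h2 : (2 : F) ≠ 0)
    (d3 : Module.finrank F U = 3) {p : ℕ} [hp : Fact p.Prime] [CharP F p] {k : U ≃ₗ[F] U} (hk : k ∈ O R)
    (hkp : k ^ p = 1) {a : U} (ha : R a ≠ 0) (hka : k a = a) : k = 1 := by
  have hfU : FiniteDimensional F U := Module.finite_of_finrank_pos (by omega)
  have hnU : Nontrivial U := Module.nontrivial_of_finrank_pos (R := F) (by omega)
  set N : Module.End F U := (k : U →ₗ[F] U) - 1 with hN
  have hNa : ∀ u, N u = k u - u := fun u => rfl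
  have hNp : N ^ p = 0 := (pow_eq_one_iff k).1 hkp
  let P : Submodule F U := LinearMap.ker (polarBilin R a)
  have hP : ∀ u, u ∈ P ↔ polar R a u = 0 := fun u => LinearMap.mem_ker
  have hNP : ∀ u, N u ∈ P := by
    intro u
    rw [hP, hNa, polar_sub_right]
    nth_rewrite 1 [← hka]
    rw [polar_map hk, sub_self]
  have hPd : Module.finrank F P = 2 := by
    have h1 := LinearMap.finrank_range_add_finrank_ker (polarBilin R a)
    have h3 : LinearMap.range (polarBilin R a) = ⊤ := by
      rw [LinearMap.range_eq_top]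
      intro c
      refine ⟨((2 * R a)⁻¹ * c) • a, ?_⟩
      show polar R a (((2 * R a)⁻¹ * c) • a) = c
      rw [polar_smul_right, polar_self', smul_eq_mul]
      have : 2 * R a ≠ 0 := mul_ne_zero h2 ha
      field_simp
    rw [h3, finrank_top, Module.finrank_self, d3] at h1
    show Module.finrank F (LinearMap.ker (polarBilin R a)) = 2
    omega
  let N' : Module.End F P := N.restrict fun x _ => hNP x
  have hN' : ∀ x : P, ((N' x : P) : U) = N (x : U) := fun x => rfl
  have hNn : ∀ (n : ℕ) (x : P), (((N' ^ n) x : P) : U) = (N ^ n) (x : U) := by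
    intro n
    induction n with
    | zero => intro x; rfl
    | succ n ih =>
      intro x
      rw [pow_succ', pow_succ']
      show ((N' ((N' ^ n) x) : P) : U) = N ((N ^ n) (x : U))
      rw [hN', ih]
  have hN2 : ∀ x ∈ P, N (N x) = 0 := by
    intro x hx
    have h3 := Module.End.ker_pow_le_ker_pow_finrank N' p
    have h4 : (⟨x, hx⟩ : P) ∈ LinearMap.ker (N' ^ 2) := by
      rw [← hPd]
      apply h3
      rw [LinearMap.mem_ker]
      apply Subtype.ext
      rw [hNn, hNp]
      rfl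
    rw [LinearMap.mem_ker] at h4
    have h5 := congrArg Subtype.val h4
    rw [hNn, pow_two] at h5
    exact h5
  have hall : ∀ u, N (N u) = 0 := by
    intro u
    have e : u = ((2 * R a)⁻¹ * polar R a u) • a + (u - ((2 * R a)⁻¹ * polar R a u) • a) := by abel
    have hNa0 : N a = 0 := by rw [hNa, hka, sub_self]
    have h6 : u - ((2 * R a)⁻¹ * polar R a u) • a ∈ P := by
      rw [hP, polar_sub_right, polar_smul_right, polar_self', smul_eq_mul]
      have : 2 * R a ≠ 0 := mul_ne_zero h2 ha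
      field_simp
      ring
    rw [e, map_add, map_smul, hNa0, smul_zero, zero_add]
    exact hN2 _ h6
  exact eq_one_of_sq h2 hR (fun u v hu hv huv hu0 => iso_three d3 hR hu hv huv hu0) hk fun x => hall x

theorem fixed_kk (S : TSt t QU QW Q) {a : U} (ha : QU a ≠ 0) {v : V} (hv : rU S.ten (kk QU a ha) v = v) :
    v = t a ((2 * QU a)⁻¹ • S.cu a v) := by
  have key : (rU S.ten (kk QU a ha) : V →ₗ[F] V) + LinearMap.id = (QU a)⁻¹ • (t a ∘ₗ S.cu a) := by
    refine ext_t S.ten fun u w => ?_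
    simp only [LinearMap.add_apply, LinearMap.smul_apply, LinearMap.comp_apply, LinearMap.id_apply,
      LinearEquiv.coe_coe, rU_apply, S.cu_t, kk_apply, map_sub, map_smul, LinearMap.sub_apply, LinearMap.smul_apply,
      sub_add_cancel, smul_smul]
  have h1 := LinearMap.congr_fun key v
  have h3 : rU S.ten (kk QU a ha) v + v = (QU a)⁻¹ • t a (S.cu a v) := h1
  rw [hv, ← two_smul F] at h3
  rw [map_smul, mul_inv, ← smul_smul, ← h3, smul_smul, inv_mul_cancel₀ S.two, one_smul]

theorem t_kk (S : TSt t QU QW Q) {a : U} (ha : QU a ≠ 0) (w : W) :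
    rU S.ten (kk QU a ha) (t a w) = t a w := by
  rw [rU_apply, kk_self]

/-- A vector fixed by `k_a` is a multiple of `a`. -/
theorem smul_of_kk {R : QuadraticForm F U} (h2 : (2 : F) ≠ 0) {a x : U} (ha : R a ≠ 0) (h : kk R a ha x = x) :
    x = ((2 * R a)⁻¹ * polar R a x) • a := by
  rw [kk_apply, sub_eq_iff_eq_add, ← two_smul F] at h
  rw [mul_inv, mul_assoc, ← smul_smul, h, smul_smul, inv_mul_cancel₀ h2, one_smul]

theorem kk_smul {R : QuadraticForm F U} {a b : U} (ha : R a ≠ 0) (hb : R b ≠ 0) {c : F} (h : b = c • a) :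
    kk R b hb = kk R a ha := by
  have hc : c ≠ 0 := by
    rintro rfl
    rw [zero_smul] at h
    exact hb (by rw [h, QuadraticMap.map_zero])
  ext x
  rw [kk_apply, kk_apply, h, QuadraticMap.map_smul, polar_smul_left, smul_smul, smul_eq_mul, smul_eq_mul]
  congr 2
  field_simp

/-- Products of two commuting `k_a` -/
theorem kk_mul_kk {R : QuadraticForm F U} (hR : Nondeg R) (h2 : (2 : F) ≠ 0) (d3 : Module.finrank F U = 3)
    {a b : U} (ha : R a ≠ 0) (hb : R b ≠ 0)
    (h1 : (kk R a ha * kk R b hb) * (kk R a ha * kk R b hb) = 1) (h3 : kk R a ha * kk R b hb ≠ 1) :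
    ∃ (c : U) (hc : R c ≠ 0), kk R a ha * kk R b hb = kk R c hc := by
  have hab : ∀ x, kk R a ha (kk R b hb x) = kk R b hb (kk R a ha x) := by
    intro x
    have h4 := LinearEquiv.congr_fun h1 (kk R b hb (kk R a ha x))
    have h5 : kk R a ha (kk R b hb (kk R a ha (kk R b hb (kk R b hb (kk R a ha x))))) =
      kk R b hb (kk R a ha x) := h4
    rw [kk_kk, kk_kk] at h5
    exact h5
  have hfix : kk R a ha (kk R b hb a) = kk R b hb a := by rw [hab, kk_self]
  have h6 := smul_of_kk h2 ha hfix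
  set e := (2 * R a)⁻¹ * polar R a (kk R b hb a) with he
  have h7 : R (kk R b hb a) = R a := kk_mem_O hb a
  rw [h6, QuadraticMap.map_smul, smul_eq_mul] at h7
  have h8 : e * e = 1 := by
    apply mul_right_cancel₀ ha
    rw [h7, one_mul]
  have hcase : e = 1 ∨ e = -1 := mul_self_eq_one_iff.1 h8
  rcases hcase with h | h
  · exfalso
    rw [h, one_smul] at h6
    have h9 := smul_of_kk h2 hb h6
    apply h3
    rw [kk_smul hb ha h9, kk_mul_self]
  · rw [h, neg_smul, one_smul] at h6
    have h9 : polar R b a = 0 := by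
      rw [kk_apply, sub_eq_neg_self] at h6
      have hb0 : b ≠ 0 := by
        rintro rfl
        exact hb (QuadraticMap.map_zero R)
      have := (smul_eq_zero.1 h6).resolve_right hb0
      exact (mul_eq_zero.1 this).resolve_left (inv_ne_zero hb)
    have h9' : polar R a b = 0 := by rw [polar_comm]; exact h9
    obtain ⟨c, hc⟩ := exists_OB2 hR h2 (by omega) ha hb h9'
    refine ⟨c, hc.nc, ?_⟩
    apply LinearEquiv.toLinearMap_injective
    ext x
    refine hc.lext h2 d3 (f := ((kk R a ha * kk R b hb : U ≃ₗ[F] U) : U →ₗ[F] U))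
      (g := (kk R c hc.nc : U →ₗ[F] U)) ?_ ?_ ?_ x
    · show kk R a ha (kk R b hb a) = kk R c hc.nc a
      rw [kk_perp hb h9, map_neg, kk_self, kk_perp hc.nc hc.ca]
    · show kk R a ha (kk R b hb b) = kk R c hc.nc b
      rw [kk_self, kk_perp ha h9', kk_perp hc.nc hc.cb]
    · show kk R a ha (kk R b hb c) = kk R c hc.nc c
      rw [kk_perp hb hc.bc, map_neg, kk_perp ha hc.ac, neg_neg, kk_self]

/-- conjugation of `k_a` by a similarity -/
theorem sim_kk {R : QuadraticForm F U} (h2 : (2 : F) ≠ 0) {k : U ≃ₗ[F] U} {ν : F} (hν : ν ≠ 0)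
    (hk : ∀ x y, polar R (k x) (k y) = ν * polar R x y) {a : U} (ha : R a ≠ 0) :
    ∃ h : R (k a) ≠ 0, k * kk R a ha * k⁻¹ = kk R (k a) h := by
  have h1 : R (k a) = ν * R a := by
    rw [Q_eq_half h2, Q_eq_half h2 a, hk]; ring
  have h3 : R (k a) ≠ 0 := by rw [h1]; exact mul_ne_zero hν ha
  refine ⟨h3, ?_⟩
  ext x
  obtain ⟨y, rfl⟩ := k.surjective x
  show k (kk R a ha (k⁻¹ (k y))) = _
  have h4 : k⁻¹ (k y) = y := LinearEquiv.symm_apply_apply k y
  rw [h4, kk_apply, kk_apply, map_sub, map_smul, hk, h1]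
  congr 2
  field_simp

end three

/-- The tensor group in `X`. -/
def HH (S : TSt t QU QW Q) (X : Subgroup (V ≃ₗ[F] V)) : Subgroup X := (TT t S.ten).subgroupOf X

theorem mem_HH {g : X} : g ∈ HH S X ↔ (g : V ≃ₗ[F] V) ∈ TT t S.ten := Subgroup.mem_subgroupOf

namespace Ov3

variable (hX : Ov3 S X)

include hX

theorem finX : Finite X := by
  have := hX.fin
  have := hX.finV
  have : Finite V := Module.finite_of_finite F
  have hfin : Finite (V ≃ₗ[F] V) :=
    Finite.of_injective (fun g : V ≃ₗ[F] V => (g : V → V)) DFunLike.coe_injective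
  infer_instance

theorem rWs_mem {s w : W} (hs : QW s = 0) (hw : polar QW s w = 0) : rW S.ten (siegel QW s w hs hw) ∈ X :=
  hX.rW _ (siegel_mem_E _ _)

theorem gd_siegel (hne : ¬ E Q ≤ X) {s w : W} (hs : QW s = 0) (hs0 : s ≠ 0) (hw : polar QW s w = 0)
    (hwn : QW w ≠ 0) : Gd (HH S X) (⟨rW S.ten (siegel QW s w hs hw), hX.rWs_mem hs hw⟩ : X) := by
  refine ⟨mem_HH.2 (tm_mem_TT _ _ _), fun g hg => mem_HH.2 ?_⟩
  exact hX.ti hne hs hs0 hw hwn g.2 (mem_HH.1 hg)

end Ov3

theorem siegel_congr {R : QuadraticForm F W} {s w w' : W} (hs : R s = 0) (hw : polar R s w = 0)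
    (hw' : polar R s w' = 0) (h : w = w') : siegel R s w hs hw = siegel R s w' hs hw' := by
  subst h; rfl

theorem siegel_zero' {R : QuadraticForm F W} {s : W} (hs : R s = 0) (h0 : polar R s 0 = 0) :
    siegel R s 0 hs h0 = 1 := by
  ext v
  rw [siegel_apply, polar_zero_left, QuadraticMap.map_zero]
  simp

theorem siegel_pow {R : QuadraticForm F W} {s w : W} (hs : R s = 0) (hw : polar R s w = 0) (n : ℕ)
    (hn : polar R s (n • w) = 0) : siegel R s w hs hw ^ n = siegel R s (n • w) hs hn := by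
  induction n with
  | zero =>
    have h0 : polar R s 0 = 0 := polar_zero_right _ _
    rw [pow_zero, siegel_congr hs hn h0 (zero_smul ℕ w), siegel_zero']
  | succ n ih =>
    have hn' : polar R s (n • w) = 0 := by
      rw [← Nat.cast_smul_eq_nsmul F, polar_smul_right, hw, smul_zero]
    have h3 : polar R s (n • w + w) = 0 := by rw [polar_add_right, hn', hw, add_zero]
    rw [pow_succ, ih hn', siegel_mul hs hn' hw h3]
    exact siegel_congr hs _ _ (succ_nsmul w n).symm

theorem siegel_inv' {R : QuadraticForm F W} {s w : W} (hs : R s = 0) (hw : polar R s w = 0)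
    (hw' : polar R s (-w) = 0) : (siegel R s w hs hw)⁻¹ = siegel R s (-w) hs hw' := by
  have h0 : polar R s 0 = 0 := polar_zero_right _ _
  have h1 : polar R s (-w + w) = 0 := by rw [neg_add_cancel]; exact h0
  rw [inv_eq_iff_mul_eq_one, siegel_mul hs hw hw' (by rw [add_neg_cancel]; exact h0),
    siegel_congr hs _ h0 (add_neg_cancel w), siegel_zero']

/-- The group of the `1 ⊗ siegel s w`. -/
def Es (S : TSt t QU QW Q) (X : Subgroup (V ≃ₗ[F] V)) {s : W} (hs : QW s = 0) : Subgroup X where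
  carrier := {g | ∃ (w : W) (hw : polar QW s w = 0), (g : V ≃ₗ[F] V) = rW S.ten (siegel QW s w hs hw)}
  one_mem' := ⟨0, polar_zero_right _ _, by rw [siegel_zero', map_one]; rfl⟩
  mul_mem' := by
    rintro g g' ⟨w, hw, h⟩ ⟨w', hw', h'⟩
    have h3 : polar QW s (w + w') = 0 := by rw [polar_add_right, hw, hw', add_zero]
    refine ⟨w + w', h3, ?_⟩
    rw [← siegel_mul hs hw hw' h3, map_mul, ← h, ← h']
    rfl
  inv_mem' := by
    rintro g ⟨w, hw, h⟩
    have h3 : polar QW s (-w) = 0 := by rw [polar_neg_right, hw, neg_zero]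
    refine ⟨-w, h3, ?_⟩
    rw [← siegel_inv' hs hw h3, map_inv, ← h]
    rfl

theorem mem_Es {s : W} {hs : QW s = 0} {g : X} : g ∈ Es S X hs ↔
    ∃ (w : W) (hw : polar QW s w = 0), (g : V ≃ₗ[F] V) = rW S.ten (siegel QW s w hs hw) := Iff.rfl

instance isMulCommutative_Es {s : W} {hs : QW s = 0} : IsMulCommutative (Es S X hs) := by
  refine ⟨⟨fun g g' => ?_⟩⟩
  obtain ⟨w, hw, h⟩ := g.2
  obtain ⟨w', hw', h'⟩ := g'.2
  apply Subtype.ext
  apply Subtype.ext
  show ((g : X) : V ≃ₗ[F] V) * ((g' : X) : V ≃ₗ[F] V) = ((g' : X) : V ≃ₗ[F] V) * ((g : X) : V ≃ₗ[F] V)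
  have h3 : polar QW s (w + w') = 0 := by rw [polar_add_right, hw, hw', add_zero]
  have h4 : polar QW s (w' + w) = 0 := by rw [polar_add_right, hw, hw', add_zero]
  rw [h, h', ← map_mul, ← map_mul, siegel_mul hs hw hw' h3, siegel_mul hs hw' hw h4]
  exact congrArg _ (siegel_congr hs _ _ (add_comm w w'))

/-- The pointwise stabiliser of `a ⊗ W`. -/
def Ka (t : U →ₗ[F] W →ₗ[F] V) (X : Subgroup (V ≃ₗ[F] V)) (a : U) : Subgroup X where
  carrier := {g | ∀ w, (g : V ≃ₗ[F] V) (t a w) = t a w}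
  one_mem' := fun w => rfl
  mul_mem' := by
    intro g g' h h' w
    show (g : V ≃ₗ[F] V) ((g' : V ≃ₗ[F] V) (t a w)) = t a w
    rw [h', h]
  inv_mem' := by
    intro g h w
    show (g : V ≃ₗ[F] V)⁻¹ (t a w) = t a w
    nth_rewrite 1 [← h w]
    exact LinearEquiv.symm_apply_apply _ _

theorem mem_Ka {a : U} {g : X} : g ∈ Ka t X a ↔ ∀ w, (g : V ≃ₗ[F] V) (t a w) = t a w := Iff.rfl

end Cfsg.Agent.H932.Three
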