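import Cfsg.Agent.H932.ThreeRoot
import Cfsg.Agent.H932.ThreeOrth
import Cfsg.Agent.H882.Ten.RadFour
import Cfsg.Agent.H883.Sub

/-!
`O₃ ⊗ O₄⁻` in `Ω₁₂⁻(q)`, `q ≥ 5` odd: the radical of the stabiliser of `U ⊗ w` in a proper overgroup `X` of
the stabiliser of the tensor decomposition consists of the `1 ⊗ siegel w x`.
-/

set_option autoImplicit false
set_option linter.unusedSimpArgs false
set_option linter.unusedSectionVars false

namespace Cfsg.Agent.H932.Three

open QuadraticMap hiding proj
open Cfsg.Agent.LieClassical.OrthCore Cfsg.Agent.LieClassical.OrthTrans Cfsg.Agent.H883.Root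
open Cfsg.Agent Cfsg.Agent.H882.Ten

variable {F : Type*} {U : Type*} {W : Type*} {V : Type*} [Field F] [AddCommGroup U] [Module F U]
  [AddCommGroup W] [Module F W] [AddCommGroup V] [Module F V]
  {t : U →ₗ[F] W →ₗ[F] V} {QU : QuadraticForm F U} {QW : QuadraticForm F W} {Q : QuadraticForm F V}
  {X : Subgroup (V ≃ₗ[F] V)} {S : TSt t QU QW Q}

/-- The hypotheses on an overgroup `X` of `O₃ ⊗ O₄⁻`. -/
structure Ov3 (S : TSt t QU QW Q) (X : Subgroup (V ≃ₗ[F] V)) : Prop extends Ov S X where
  d3 : Module.finrank F U = 3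
  d4 : Module.finrank F W = 4
  an : ∀ s w, QW s = 0 → s ≠ 0 → polar QW s w = 0 → QW w = 0 → ∃ c : F, w = c • s
  kU : ∀ a (ha : QU a ≠ 0), Cfsg.Agent.H882.Ten.rU S.ten (kk QU a ha) ∈ X
  five : ∃ c : F, c ≠ 0 ∧ c * c ≠ 1
  fin : Finite F
  leE : X ≤ E Q
  ge : ∀ g ∈ TT t S.ten, g ∈ E Q → g ∈ X

theorem inR_congr {w : W} {τ τ' : W →ₗ[F] U →ₗ[F] U} (h : InR t QW X w τ)
    (he : ∀ z, polar QW w z = 0 → ∀ u, τ z u = τ' z u) : InR t QW X w τ' := by
  obtain ⟨g, hg, h1, h2⟩ := h
  refine ⟨g, hg, h1, fun u z hz => ?_⟩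
  rw [h2 u z hz, he z hz u]

/-- Singular orthogonal vectors of a three-dimensional space are proportional. -/
theorem iso_three (d3 : Module.finrank F U = 3) (hQ : Nondeg QU) {u v : U} (hu : QU u = 0) (hv : QU v = 0)
    (huv : polar QU u v = 0) (hu0 : u ≠ 0) : ∃ c : F, v = c • u := by
  by_contra hne
  push Not at hne
  have : Module.Finite F U := Module.finite_of_finrank_pos (by omega)
  -- `span {u, v}` is totally isotropic of dimension 2
  have hli : LinearIndependent F ![u, v] := by
    rw [LinearIndependent.pair_iff]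
    intro a b hab
    have hb : b = 0 := by
      by_contra hb
      apply hne (-(b⁻¹ * a))
      have h1 : b • v = -(a • u) := by rw [eq_neg_iff_add_eq_zero, add_comm]; exact hab
      calc v = b⁻¹ • (b • v) := by rw [smul_smul, inv_mul_cancel₀ hb, one_smul]
        _ = _ := by rw [h1, smul_neg, smul_smul, neg_smul]
    subst hb
    rw [zero_smul, add_zero] at hab
    exact ⟨(smul_eq_zero.1 hab).resolve_right hu0, rfl⟩
  set P := Submodule.span F (Set.range ![u, v]) with hP
  have hP2 : Module.finrank F P = 2 := by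
    rw [hP, finrank_span_eq_card hli, Fintype.card_fin]
  have huu : polar QU u u = 0 := polar_self_of_sing hu
  have hvv : polar QU v v = 0 := polar_self_of_sing hv
  have hvu : polar QU v u = 0 := by rw [polar_comm]; exact huv
  have hle : P ≤ Cfsg.Agent.H883.Sub.perp QU P := by
    rw [hP, Submodule.span_le]
    rintro _ ⟨i, rfl⟩
    rw [SetLike.mem_coe, Cfsg.Agent.H883.Sub.mem_perp]
    intro w hw
    rw [Submodule.mem_span_range_iff_exists_fun] at hw
    obtain ⟨d, hd⟩ := hw
    rw [Fin.sum_univ_two] at hd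
    have hd' : d 0 • u + d 1 • v = w := hd
    rw [← hd', polar_add_left, polar_smul_left, polar_smul_left]
    fin_cases i
    · show d 0 • polar QU u u + d 1 • polar QU v u = 0
      rw [huu, hvu]; simp
    · show d 0 • polar QU u v + d 1 • polar QU v v = 0
      rw [huv, hvv]; simp
  have h1 := Cfsg.Agent.H883.Sub.finrank_perp hQ P
  have h2 := Submodule.finrank_mono hle
  omega

theorem pu_of_three (d3 : Module.finrank F U = 3) (hQ : Nondeg QU) : PU QU := by
  intro u v hu hv huv hu0 hne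
  obtain ⟨c, hc⟩ := iso_three d3 hQ hu hv huv hu0
  exact absurd hc (hne c)

namespace Ov3

variable (hX : Ov3 S X)

include hX

/-- The parameters have no off-diagonal entries with respect to orthogonal bases. -/
theorem offdiag {w : W} (hw : QW w = 0) (hw0 : w ≠ 0)
    (hZ : ∀ κ, InZ t QW X w κ → κ = 0) {τ : W →ₗ[F] U →ₗ[F] U} (h : InR t QW X w τ) {a b c : U}
    (ho : OB QU a b c) {z : W} (hz : polar QW w z = 0) : polar QU (τ z a) b = 0 := by
  have h2 := S.two
  have hfW : FiniteDimensional F W := Module.finite_of_finrank_pos (by rw [hX.d4]; norm_num)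
  -- the operators
  have hsymm : ∀ {τ : W →ₗ[F] U →ₗ[F] U}, InR t QW X w τ → ∀ z, polar QW w z = 0 → ∀ u u',
      polar QU (τ z u) u' = polar QU u (τ z u') := fun h z hz u u' => hX.tau_symm hw hw0 hZ h hz u u'
  let cjt : (U ≃ₗ[F] U) → (W →ₗ[F] U →ₗ[F] U) → (W →ₗ[F] U →ₗ[F] U) := fun k τ =>
    { toFun := fun z => cj k (τ z)
      map_add' := fun x y => by ext u; simp [cj_apply]
      map_smul' := fun x y => by ext u; simp [cj_apply] }
  have hcjt : ∀ k τ z u, cjt k τ z u = k (τ z (k⁻¹ u)) := fun k τ z u => rfl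
  have hIn : ∀ {τ : W →ₗ[F] U →ₗ[F] U} (e : U) (he : QU e ≠ 0), InR t QW X w τ →
      InR t QW X w (cjt (kk QU e he) τ) := fun e he h => S.inR_cj h (hX.kU e he) (fun z => rfl)
  have hk : ∀ {τ : W →ₗ[F] U →ₗ[F] U} (e : U) (he : QU e ≠ 0) (z : W) (u u' : U),
      polar QU (cjt (kk QU e he) τ z u) u' = polar QU (τ z (kk QU e he u)) (kk QU e he u') := by
    intro τ e he z u u'
    rw [hcjt, kk_inv, kk_adj]
  set τ1 := τ - cjt (kk QU a ho.na) τ with hτ1
  have i1 : InR t QW X w τ1 := S.inR_sub h (hIn a ho.na h)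
  have i0 : InR t QW X w (τ1 - τ1) := S.inR_sub i1 i1
  set τ2 := τ1 - ((τ1 - τ1) - cjt (kk QU c ho.nc) τ1) with hτ2
  have i2 : InR t QW X w τ2 := S.inR_sub i1 (S.inR_sub i0 (hIn c ho.nc i1))
  have e1 : ∀ z u u', polar QU (τ1 z u) u' = polar QU (τ z u) u' -
      polar QU (τ z (kk QU a ho.na u)) (kk QU a ho.na u') := by
    intro z u u'
    rw [hτ1, LinearMap.sub_apply, LinearMap.sub_apply, polar_sub_left, hk]
  have e2 : ∀ z u u', polar QU (τ2 z u) u' = polar QU (τ1 z u) u' +
      polar QU (τ1 z (kk QU c ho.nc u)) (kk QU c ho.nc u') := by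
    intro z u u'
    rw [hτ2, sub_self, zero_sub, sub_neg_eq_add, LinearMap.add_apply, LinearMap.add_apply, polar_add_left, hk]
  have kaa : kk QU a ho.na a = a := kk_self _
  have kab : kk QU a ho.na b = -b := kk_perp _ ho.ab
  have kac : kk QU a ho.na c = -c := kk_perp _ ho.ac
  have kcc : kk QU c ho.nc c = c := kk_self _
  have kca : kk QU c ho.nc a = -a := kk_perp _ ho.ca
  have kcb : kk QU c ho.nc b = -b := kk_perp _ ho.cb
  -- the entries of `τ1`
  have f_aa : ∀ z, polar QU (τ1 z a) a = 0 := by intro z; rw [e1, kaa, sub_self]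
  have f_ab : ∀ z, polar QU (τ1 z a) b = 2 * polar QU (τ z a) b := by
    intro z; rw [e1, kaa, kab, polar_neg_right]; ring
  have f_bb : ∀ z, polar QU (τ1 z b) b = 0 := by
    intro z; rw [e1, kab, map_neg, polar_neg_left, polar_neg_right]; ring
  have f_bc : ∀ z, polar QU (τ1 z b) c = 0 := by
    intro z; rw [e1, kab, kac, map_neg, polar_neg_left, polar_neg_right]; ring
  have f_cc : ∀ z, polar QU (τ1 z c) c = 0 := by
    intro z; rw [e1, kac, map_neg, polar_neg_left, polar_neg_right]; ring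
  -- the entries of `τ2`
  have g_aa : ∀ z, polar QU (τ2 z a) a = 0 := by
    intro z; rw [e2, kca, map_neg, polar_neg_left, polar_neg_right, f_aa]; ring
  have g_ab : ∀ z, polar QU (τ2 z a) b = 4 * polar QU (τ z a) b := by
    intro z; rw [e2, kca, kcb, map_neg, polar_neg_left, polar_neg_right, f_ab]; ring
  have g_ac : ∀ z, polar QU (τ2 z a) c = 0 := by
    intro z; rw [e2, kca, kcc, map_neg, polar_neg_left]; ring
  have g_bb : ∀ z, polar QU (τ2 z b) b = 0 := by
    intro z; rw [e2, kcb, map_neg, polar_neg_left, polar_neg_right, f_bb]; ring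
  have g_bc : ∀ z, polar QU (τ2 z b) c = 0 := by
    intro z; rw [e2, kcb, kcc, map_neg, polar_neg_left]; ring
  have g_cc : ∀ z, polar QU (τ2 z c) c = 0 := by
    intro z; rw [e2, kcc, f_cc]; ring
  -- the representing vector
  obtain ⟨y, hy⟩ := riesz S.ndW (((polarBilin QU).flip b) ∘ₗ (LinearMap.applyₗ a) ∘ₗ τ2)
  have hy' : ∀ z, polar QW y z = polar QU (τ2 z a) b := fun z => hy z
  have hyw : polar QW w y = 0 := by
    obtain ⟨g, hg, hgτ⟩ := i2
    rw [polar_comm, hy', S.tau_self hw hw0 hgτ, polar_zero_left]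
  by_contra hne
  have hne4 : polar QW y z ≠ 0 := by
    rw [hy', g_ab]
    have h4 : (4 : F) = 2 * 2 := by norm_num
    rw [h4]
    exact mul_ne_zero (mul_ne_zero h2 h2) hne
  have hyn : QW y ≠ 0 := by
    intro h0
    obtain ⟨d, rfl⟩ := hX.an w y hw hw0 hyw h0
    rw [polar_smul_left, hz, smul_zero] at hne4
    exact hne4 rfl
  have hyy : polar QW y y ≠ 0 := by
    rw [polar_self']
    exact mul_ne_zero h2 hyn
  have hna : 2 * QU a ≠ 0 := mul_ne_zero h2 ho.na
  have hnb : 2 * QU b ≠ 0 := mul_ne_zero h2 ho.nb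
  -- the operator
  set κ : F := (2 * QU a)⁻¹ * (2 * QU b)⁻¹ with hκ
  have hκ0 : κ ≠ 0 := mul_ne_zero (inv_ne_zero hna) (inv_ne_zero hnb)
  let α : U →ₗ[F] U := κ • ((polarBilin QU a).smulRight b + (polarBilin QU b).smulRight a)
  have hα : ∀ u, α u = κ • (polar QU a u • b + polar QU b u • a) := fun u => rfl
  have hαp : ∀ u u', polar QU (α u) u' = κ * (polar QU a u * polar QU b u' + polar QU b u * polar QU a u') := by
    intro u u'
    rw [hα, polar_smul_left, polar_add_left, polar_smul_left, polar_smul_left]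
    simp only [smul_eq_mul]
  have hαs : ∀ u u', polar QU (α u) u' = polar QU u (α u') := by
    intro u u'
    rw [hαp, polar_comm QU u, hαp]
    ring
  have hτα : ∀ z, polar QW w z = 0 → ∀ u, τ2 z u = ((polarBilin QW y).smulRight α) z u := by
    intro z hz
    have hs := hsymm i2 z hz
    have hval : ∀ u u', polar QU (((polarBilin QW y).smulRight α) z u) u' =
        polar QW y z * (κ * (polar QU a u * polar QU b u' + polar QU b u * polar QU a u')) := by
      intro u u'
      rw [LinearMap.smulRight_apply, LinearMap.smul_apply, polar_smul_left, hαp]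
      rfl
    have hab : polar QU (τ2 z a) b = polar QW y z := (hy' z).symm
    have hk1 : κ * (2 * QU a * (2 * QU b)) = 1 := by
      calc κ * (2 * QU a * (2 * QU b)) = ((2 * QU a)⁻¹ * (2 * QU a)) * ((2 * QU b)⁻¹ * (2 * QU b)) := by
            rw [hκ]; ring
        _ = 1 := by rw [inv_mul_cancel₀ hna, inv_mul_cancel₀ hnb, one_mul]
    refine ho.lext h2 hX.d3 ?_ ?_ ?_
    · refine ho.ext h2 hX.d3 ?_ ?_ ?_
      · rw [hval, g_aa, ho.ba]; ring
      · rw [hval, hab, ho.ba, polar_self', polar_self']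
        linear_combination (-polar QW y z) * hk1
      · rw [hval, g_ac, ho.ba, ho.bc]; ring
    · refine ho.ext h2 hX.d3 ?_ ?_ ?_
      · rw [hval, hs, polar_comm, hab, ho.ab, polar_self', polar_self']
        linear_combination (-polar QW y z) * hk1
      · rw [hval, g_bb, ho.ab]; ring
      · rw [hval, g_bc, ho.ab, ho.ac]; ring
    · refine ho.ext h2 hX.d3 ?_ ?_ ?_
      · rw [hval, hs, polar_comm, g_ac, ho.ac, ho.bc]; ring
      · rw [hval, hs, polar_comm, g_bc, ho.ac, ho.bc]; ring
      · rw [hval, g_cc, ho.ac, ho.bc]; ring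
  have i3 : InR t QW X w ((polarBilin QW y).smulRight α) := inR_congr i2 hτα
  -- a vector of the norm of `c`
  obtain ⟨x, hx0, hx1⟩ := hX.five
  have hfin := hX.fin
  obtain ⟨p, r, hpr⟩ := exists_sq_add_sq h2 ho.na ho.nb ((1 - x * x) * QU c)
  set v := x • c + (p • a + r • b) with hv
  have hvn : QU c = QU v := by
    rw [hv, Q_add, Q_add, QuadraticMap.map_smul, QuadraticMap.map_smul, QuadraticMap.map_smul]
    simp only [polar_add_right, polar_smul_right, polar_smul_left, ho.ca, ho.cb, ho.ab, smul_eq_mul]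
    linear_combination -hpr
  have hcv : polar QU c v = 2 * (x * QU c) := by
    rw [hv, polar_add_right, polar_add_right, polar_smul_right, polar_smul_right, polar_smul_right, ho.ca,
      ho.cb, polar_self']
    simp only [smul_eq_mul]
    ring
  have hn : QU (c + v) ≠ 0 := by
    rw [Q_add, ← hvn, hcv]
    have : QU c + QU c + 2 * (x * QU c) = 2 * QU c * (1 + x) := by ring
    rw [this]
    refine mul_ne_zero (mul_ne_zero h2 ho.nc) ?_
    intro h0
    apply hx1
    have : x = -1 := by linear_combination h0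
    rw [this]; ring
  have i4 : InR t QW X w ((polarBilin QW y).smulRight (cj (kk QU (c + v) hn) α)) := by
    refine S.inR_cj i3 (hX.kU (c + v) hn) fun z => ?_
    ext u
    simp only [LinearMap.smulRight_apply, LinearMap.smul_apply, cj_apply, map_smul]
  have hβs : ∀ u u', polar QU (cj (kk QU (c + v) hn) α u) u' = polar QU u (cj (kk QU (c + v) hn) α u') := by
    intro u u'
    rw [cj_apply, cj_apply, kk_inv, kk_adj, hαs, kk_adj]
  have hcomm := hX.tau_commute hw hw0 hZ hyw hyw hyy i3 i4 hαs hβs v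
  have hhc : kk QU (c + v) hn c = v := kk_swap hvn hn
  have hhv : kk QU (c + v) hn v = c := by
    have := kk_kk hn c
    rwa [hhc] at this
  have hαc : α c = 0 := by rw [hα, ho.ac, ho.bc]; simp
  rw [cj_apply, cj_apply, kk_inv, hhv, hαc, map_zero, map_zero] at hcomm
  have h5 : α (kk QU (c + v) hn (α v)) = 0 := by
    have h6 := congrArg (kk QU (c + v) hn) hcomm
    rw [kk_kk, map_zero] at h6
    exact h6.symm
  -- the kernel of `α`
  have hker : ∀ u, α u = 0 → polar QU a u = 0 ∧ polar QU b u = 0 := by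
    intro u hu
    have h7 := hαp u b
    have h8 := hαp u a
    rw [hu, polar_zero_left, ho.ab, polar_self'] at h7
    rw [hu, polar_zero_left, ho.ba, polar_self'] at h8
    constructor
    · have h9 : κ * (2 * QU b) * polar QU a u = 0 := by linear_combination -h7
      exact (mul_eq_zero.1 h9).resolve_left (mul_ne_zero hκ0 hnb)
    · have h9 : κ * (2 * QU a) * polar QU b u = 0 := by linear_combination -h8
      exact (mul_eq_zero.1 h9).resolve_left (mul_ne_zero hκ0 hna)
  obtain ⟨k1, k2⟩ := hker _ h5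
  have h6 := ho.expand h2 hX.d3 (kk QU (c + v) hn (α v))
  rw [k1, k2] at h6
  simp only [mul_zero, zero_smul, zero_add] at h6
  have h7 := congrArg (kk QU (c + v) hn) h6
  rw [kk_kk, map_smul, hhc] at h7
  set e := (2 * QU c)⁻¹ * polar QU c (kk QU (c + v) hn (α v)) with he
  -- compare the `c`-coordinates
  have h8 := congrArg (polar QU c) h7
  have h9 : polar QU c (α v) = 0 := by
    rw [polar_comm, hαp, ho.ac, ho.bc]; ring
  rw [h9, polar_smul_right, hcv, smul_eq_mul] at h8
  have he0 : e = 0 := by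
    have : e * (2 * (x * QU c)) = 0 := h8.symm
    exact (mul_eq_zero.1 this).resolve_right (mul_ne_zero h2 (mul_ne_zero hx0 ho.nc))
  rw [he0, zero_smul] at h7
  obtain ⟨m1, m2⟩ := hker _ h7
  rw [hv, polar_add_right, polar_add_right, polar_smul_right, polar_smul_right, polar_smul_right, ho.ac,
    ho.ab, polar_self'] at m1
  rw [hv, polar_add_right, polar_add_right, polar_smul_right, polar_smul_right, polar_smul_right, ho.bc,
    ho.ba, polar_self'] at m2
  simp only [smul_eq_mul, mul_zero, zero_add, add_zero] at m1 m2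
  have hp0 : p = 0 := (mul_eq_zero.1 m1).resolve_right hna
  have hr0 : r = 0 := (mul_eq_zero.1 m2).resolve_right hnb
  rw [hp0, hr0] at hpr
  have h10 : (1 - x * x) * QU c = 0 := by linear_combination -hpr
  rcases mul_eq_zero.1 h10 with h11 | h11
  · exact hx1 (by linear_combination -h11)
  · exact ho.nc h11

/-- **The radical of the stabiliser of `U ⊗ w`.** -/
theorem rad_le (hne : ¬ E Q ≤ X) {w : W} (hw : QW w = 0)
    (hw0 : w ≠ 0) {g : V ≃ₗ[F] V} (hg : g ∈ X) (h1 : ∀ u, g (t u w) = t u w)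
    (h2 : ∀ u z, polar QW w z = 0 → ∃ u', g (t u z) = t u z + t u' w) :
    ∃ (x : W) (hx : polar QW w x = 0), g = Cfsg.Agent.H882.Ten.rW S.ten (siegel QW w x hw hx) := by
  have hfU : FiniteDimensional F U := Module.finite_of_finrank_pos (by rw [hX.d3]; norm_num)
  have hfW : FiniteDimensional F W := Module.finite_of_finrank_pos (by rw [hX.d4]; norm_num)
  have hZ : ∀ κ, InZ t QW X w κ → κ = 0 := by
    intro κ hκ
    by_contra h0
    exact hne (hX.E_le_of_inZ (pu_of_three hX.d3 S.ndU) hw hw0 hκ h0)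
  obtain ⟨w', hyp⟩ := LieClassical.OrthTrans.exists_hyp S.ndW hw hw0
  let τ : W →ₗ[F] U →ₗ[F] U := (t.flip).compr₂ (S.cw w' ∘ₗ ((g : V →ₗ[F] V) - LinearMap.id))
  have hτ : ∀ z u, τ z u = S.cw w' (g (t u z) - t u z) := fun z u => rfl
  have hgτ : IsR t QW w g τ := by
    refine ⟨h1, fun u z hz => ?_⟩
    obtain ⟨u', hu'⟩ := h2 u z hz
    have : τ z u = u' := by
      rw [hτ, hu', add_sub_cancel_left, S.cw_t, hyp.pair', one_smul]
    rw [this]
    exact hu'
  have hIn : InR t QW X w τ := ⟨g, hg, hgτ⟩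
  have hoff : ∀ {a b c : U}, OB QU a b c → ∀ z, polar QW w z = 0 → polar QU (τ z a) b = 0 :=
    fun ho z hz => hX.offdiag hw hw0 hZ hIn ho hz
  -- all parameters are scalars
  obtain ⟨u0, u0', hyp0⟩ := hX.sU
  obtain ⟨a, ha⟩ : ∃ a, QU a ≠ 0 := by
    have hc := Cfsg.Agent.H883.Sub.exists_value hyp0 1
    exact ⟨_, by rw [hc.1]; exact one_ne_zero⟩
  obtain ⟨b, c, ho⟩ := exists_OB S.ndU S.two hX.dU ha
  have heq : ∀ {a b c : U}, OB QU a b c → ∀ z, polar QW w z = 0 →
      (2 * QU a)⁻¹ * polar QU a (τ z a) = (2 * QU b)⁻¹ * polar QU b (τ z b) := by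
    intro a b c ho z hz
    obtain ⟨x, hx0, hxn⟩ : ∃ x : F, x ≠ 0 ∧ QU a + x * x * QU b ≠ 0 := by
      by_cases h : QU a + QU b = 0
      · obtain ⟨x, hx0, hx1⟩ := hX.five
        refine ⟨x, hx0, fun h' => ?_⟩
        have : (x * x - 1) * QU b = 0 := by linear_combination h' - h
        rcases mul_eq_zero.1 this with h3 | h3
        · exact hx1 (by linear_combination h3)
        · exact ho.nb h3
      · exact ⟨1, one_ne_zero, by simpa using h⟩
    have hn1 : QU (a + x • b) = QU a + x * x * QU b := by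
      rw [Q_add, QuadraticMap.map_smul, polar_smul_right, ho.ab]
      simp only [smul_eq_mul]
      ring
    have hn2 : QU ((x * QU b) • a + (-QU a) • b) = QU a * QU b * (QU a + x * x * QU b) := by
      rw [Q_add, QuadraticMap.map_smul, QuadraticMap.map_smul, polar_smul_right, polar_smul_left, ho.ab]
      simp only [smul_eq_mul]
      ring
    have ho' : OB QU (a + x • b) ((x * QU b) • a + (-QU a) • b) c := by
      refine ⟨by rw [hn1]; exact hxn, ?_, ho.nc, ?_, ?_, ?_⟩
      · rw [hn2]
        exact mul_ne_zero (mul_ne_zero ho.na ho.nb) hxn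
      · simp only [polar_add_left, polar_add_right, polar_smul_left, polar_smul_right, ho.ab, ho.ba,
          polar_self', smul_eq_mul]
        ring
      · rw [polar_add_left, polar_smul_left, ho.ac, ho.bc]; simp
      · rw [polar_add_left, polar_smul_left, polar_smul_left, ho.ac, ho.bc]; simp
    have h3 := hoff ho' z hz
    have h4 := hoff ho z hz
    have h5 := hoff ho.swap12 z hz
    simp only [map_add, map_smul, polar_add_left, polar_add_right, polar_smul_left, polar_smul_right, h4, h5,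
      smul_eq_mul, mul_zero, add_zero, zero_add] at h3
    have hna : 2 * QU a ≠ 0 := mul_ne_zero S.two ho.na
    have hnb : 2 * QU b ≠ 0 := mul_ne_zero S.two ho.nb
    have hna' := ho.na
    have hnb' := ho.nb
    have h2' := S.two
    rw [polar_comm QU a, polar_comm QU b]
    field_simp
    have h6 : x * (QU b * polar QU (τ z a) a - QU a * polar QU (τ z b) b) = 0 := by linear_combination h3
    have h7 := (mul_eq_zero.1 h6).resolve_left hx0
    linear_combination h7
  have hscal : ∀ z, polar QW w z = 0 → ∃ d : F, ∀ u, τ z u = d • u := by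
    intro z hz
    refine ⟨(2 * QU a)⁻¹ * polar QU a (τ z a), ?_⟩
    have hna : 2 * QU a ≠ 0 := mul_ne_zero S.two ho.na
    have hnb : 2 * QU b ≠ 0 := mul_ne_zero S.two ho.nb
    have hnc : 2 * QU c ≠ 0 := mul_ne_zero S.two ho.nc
    have h3 := heq ho z hz
    have h4 := heq ho.swap23 z hz
    refine ho.lext (f := τ z) (g := ((2 * QU a)⁻¹ * polar QU a (τ z a)) • LinearMap.id) S.two hX.d3 ?_ ?_ ?_
    · rw [LinearMap.smul_apply, LinearMap.id_apply]
      refine ho.ext S.two hX.d3 ?_ ?_ ?_
      · rw [polar_smul_left, polar_self', polar_comm QU (τ z a) a, smul_eq_mul, mul_right_comm,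
          inv_mul_cancel₀ hna, one_mul]
      · rw [hoff ho z hz, polar_smul_left, ho.ab, smul_zero]
      · rw [hoff ho.swap23 z hz, polar_smul_left, ho.ac, smul_zero]
    · rw [LinearMap.smul_apply, LinearMap.id_apply, h3]
      refine ho.ext S.two hX.d3 ?_ ?_ ?_
      · rw [hoff ho.swap12 z hz, polar_smul_left, ho.ba, smul_zero]
      · rw [polar_smul_left, polar_self', polar_comm QU (τ z b) b, smul_eq_mul, mul_right_comm,
          inv_mul_cancel₀ hnb, one_mul]
      · rw [hoff ho.rot z hz, polar_smul_left, ho.bc, smul_zero]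
    · rw [LinearMap.smul_apply, LinearMap.id_apply, h4]
      refine ho.ext S.two hX.d3 ?_ ?_ ?_
      · rw [hoff ho.swap23.swap12 z hz, polar_smul_left, ho.ca, smul_zero]
      · rw [hoff ho.rot.swap12 z hz, polar_smul_left, ho.cb, smul_zero]
      · rw [polar_smul_left, polar_self', polar_comm QU (τ z c) c, smul_eq_mul, mul_right_comm,
          inv_mul_cancel₀ hnc, one_mul]
  -- the vector `x`
  obtain ⟨x, hx⟩ := riesz S.ndW (-(((polarBilin QU).flip u0') ∘ₗ (LinearMap.applyₗ u0) ∘ₗ τ))
  have hx' : ∀ z, polar QW x z = - polar QU (τ z u0) u0' := fun z => hx z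
  have hxw : polar QW w x = 0 := by
    rw [polar_comm, hx', S.tau_self hw hw0 hgτ, polar_zero_left, neg_zero]
  have hval : ∀ z, polar QW w z = 0 → ∀ u, τ z u = -(polar QW x z) • u := by
    intro z hz u
    obtain ⟨c, hc⟩ := hscal z hz
    rw [hx', hc, hc, polar_smul_left, hyp0.pair]
    simp
  refine ⟨x, hxw, ?_⟩
  -- compare
  set g0 := Cfsg.Agent.H882.Ten.rW S.ten (siegel QW w x hw hxw) with hg0
  have hg0X : g0 ∈ X := hX.rW _ (siegel_mem_E hw hxw)
  have h3 := S.isR_mul_inv hgτ (S.isR_siegel hw hxw)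
  have h4 : ∀ u z, polar QW w z = 0 → (g * g0⁻¹) (t u z) = t u z := by
    intro u z hz
    rw [h3.2 u z hz]
    have : (τ - -(polarBilin QW x).smulRight (LinearMap.id : U →ₗ[F] U)) z u = 0 := by
      simp only [LinearMap.sub_apply, LinearMap.neg_apply, LinearMap.smulRight_apply, LinearMap.smul_apply,
        LinearMap.id_apply, polarBilin_apply_apply, hval z hz]
      module
    rw [this, map_zero, LinearMap.zero_apply, add_zero]
  have h5 : g * g0⁻¹ ∈ X := X.mul_mem hg (X.inv_mem hg0X)
  obtain ⟨κ, hκ⟩ := S.inZ_of_triv hX.le hX.hG.nondeg hyp h5 h4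
  have hκ0 := hZ κ ⟨_, h5, hκ⟩
  have h6 : g * g0⁻¹ = 1 := by
    refine ext_t' S.ten fun u z => ?_
    rw [hκ, hκ0]
    simp
  exact mul_inv_eq_one.1 h6

end Ov3

end Cfsg.Agent.H932.Three
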