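import Cfsg.Agent.H932.ThreeRad
import Cfsg.Agent.H932.ThreeUnip

/-!
`O₃ ⊗ O₄⁻` in `Ω₁₂⁻(q)`, `q ≥ 5` odd: the stabiliser of `U ⊗ s` (`s` singular) in a proper overgroup lies in the
stabiliser of the tensor decomposition; the elements `1 ⊗ siegel s w` are TI.
-/

set_option autoImplicit false
set_option linter.unusedSimpArgs false
set_option linter.unusedSectionVars false

namespace Cfsg.Agent.H932.Three

open QuadraticMap hiding proj
open Cfsg.Agent.LieClassical.OrthCore Cfsg.Agent.LieClassical.OrthTrans Cfsg.Agent.H883.Root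
open Cfsg.Agent Cfsg.Agent.H882.Ten

variable {F : Type*} {U : Type*} {W : Type*} {V : Type*} [Field F] [AddCommGroup U] [Module F U]
  [AddCommGroup W] [Module F W] [AddCommGroup V] [Module F V]
  {t : U →ₗ[F] W →ₗ[F] V} {QU : QuadraticForm F U} {QW : QuadraticForm F W} {Q : QuadraticForm F V}
  {X : Subgroup (V ≃ₗ[F] V)} {S : TSt t QU QW Q}

section general

variable (S)

/-- `U ⊗ s` is the orthogonal space of `U ⊗ s^⊥`. -/
theorem mem_of_perp (hQ : Nondeg Q) {s s' : W} (hyp : Hyp QW s s') {z : V}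
    (hz : ∀ y, polar QW s y = 0 → S.cw y z = 0) : z = t (S.cw s' z) s := by
  rw [← sub_eq_zero]
  refine hQ _ fun v => ?_
  have : (polarBilin Q) (z - t (S.cw s' z) s) = 0 := by
    refine ext_t S.ten fun u y => ?_
    rw [polarBilin_apply_apply, LinearMap.zero_apply, polar_sub_left]
    set β := polar QW s y with hβ
    have hz0 : polar QW s (y - β • s') = 0 := by rw [polar_sub_right, polar_smul_right, hyp.pair, hβ]; simp
    have e0 : t u y = t u (y - β • s') + β • t u s' := by rw [map_sub, map_smul]; abel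
    have e1 : polar Q z (t u (y - β • s')) = 0 := by rw [S.polar_cw, hz _ hz0, polar_zero_left]
    have e2 : polar Q z (t u s') = polar QU (S.cw s' z) u := S.polar_cw _ _ _
    rw [e0, polar_add_right, polar_add_right, polar_smul_right, polar_smul_right, e1, e2, S.pol, S.pol, hz0,
      hyp.pair]
    simp only [smul_eq_mul, mul_zero, mul_one, zero_add, sub_self]
  exact LinearMap.congr_fun this v

/-- the action of `1 ⊗ siegel s w` on `U ⊗ s^⊥`. -/
theorem rW_siegel_perp {s s' w : W} (hyp : Hyp QW s s') (hw : polar QW s w = 0) {v : V} (hv : S.cw s v = 0) :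
    rW S.ten (siegel QW s w hyp.left hw) v = v - t (S.cw w v) s := by
  rw [S.isR_apply hyp (S.isR_siegel hyp.left hw) hv]
  have h3 : S.hat (-(polarBilin QW w).smulRight (LinearMap.id : U →ₗ[F] U)) v = - S.cw w v := by
    have : S.hat (-(polarBilin QW w).smulRight (LinearMap.id : U →ₗ[F] U)) = - S.cw w := by
      refine ext_t S.ten fun u z => ?_
      rw [S.hat_t, LinearMap.neg_apply, LinearMap.neg_apply, LinearMap.neg_apply, S.cw_t]
      rfl
    rw [this]; rfl
  rw [h3, map_neg, LinearMap.neg_apply, sub_eq_add_neg]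

end general

namespace Ov3

variable (hX : Ov3 S X)

include hX

theorem finU : FiniteDimensional F U := Module.finite_of_finrank_pos (by rw [hX.d3]; norm_num)

theorem finW : FiniteDimensional F W := Module.finite_of_finrank_pos (by rw [hX.d4]; norm_num)

theorem finV : FiniteDimensional F V := Module.finite_of_finrank_pos (by have := hX.hG.dim; omega)

/-- A nonsingular vector orthogonal to a hyperbolic pair. -/
theorem exists_w0 {s s' : W} (hyp : Hyp QW s s') : ∃ w, polar QW s w = 0 ∧ polar QW s' w = 0 ∧ QW w ≠ 0 :=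
  exists_nonsing_perp S.ndW hX.dW hyp

/-- Elements of `X` stabilising `U ⊗ s` normalise the group of the `1 ⊗ siegel s w`. -/
theorem contr (hne : ¬ E Q ≤ X) {s s' : W} (hyp : Hyp QW s s') {m : V ≃ₗ[F] V} (hm : m ∈ X)
    {α : U ≃ₗ[F] U} (hα : ∀ u, m (t u s) = t (α u) s)
    (hmp : ∀ v, S.cw s v = 0 ↔ S.cw s (m v) = 0) {y : W} (hy : polar QW s y = 0) :
    ∃ w, polar QW s w = 0 ∧ ∀ v, S.cw s v = 0 → S.cw y (m v) = α (S.cw w v) := by
  have hd : rW S.ten (siegel QW s y hyp.left hy) ∈ X := hX.rW _ (siegel_mem_E _ _)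
  have hmi : ∀ v, m (m⁻¹ v) = v := fun v => LinearEquiv.apply_symm_apply m v
  have him : ∀ v, m⁻¹ (m v) = v := fun v => LinearEquiv.symm_apply_apply m v
  have hpu : polar QW y s = 0 := by rw [polar_comm]; exact hy
  have hdP : ∀ v, S.cw s v = 0 → (m⁻¹ * rW S.ten (siegel QW s y hyp.left hy) * m) v =
      v - t (α.symm (S.cw y (m v))) s := by
    intro v hv
    show m⁻¹ (rW S.ten (siegel QW s y hyp.left hy) (m v)) = _
    rw [rW_siegel_perp S hyp hy ((hmp v).1 hv), map_sub, him]
    congr 1
    apply m.injective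
    rw [hmi, hα, LinearEquiv.apply_symm_apply]
  have hs0 : polar QW s s = 0 := polar_self_of_sing hyp.left
  obtain ⟨w, hw, he⟩ := hX.rad_le hne hyp.left hyp.left_ne
    (X.mul_mem (X.mul_mem (X.inv_mem hm) hd) hm) (by
      intro u
      rw [hdP _ (by rw [S.cw_t, hs0, zero_smul]), hα, S.cw_t, hpu, zero_smul, map_zero, map_zero,
        LinearMap.zero_apply, sub_zero]) (by
      intro u z hz
      rw [hdP _ (by rw [S.cw_t, hz, zero_smul])]
      exact ⟨-(α.symm (S.cw y (m (t u z)))), by rw [map_neg, LinearMap.neg_apply, sub_eq_add_neg]⟩)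
  refine ⟨w, hw, fun v hv => ?_⟩
  have h1 := hdP v hv
  rw [he, rW_siegel_perp S hyp hw hv] at h1
  have h2 : t (S.cw w v) s = t (α.symm (S.cw y (m v))) s := by
    have := congrArg (fun x => v - x) h1
    simpa using this
  have h3 := t_left_inj S.ten hyp.left_ne h2
  rw [h3, LinearEquiv.apply_symm_apply]

/-- **The stabiliser of `U ⊗ s`.** -/
theorem stab (hne : ¬ E Q ≤ X) {s : W} (hs : QW s = 0) (hs0 : s ≠ 0) {m : V ≃ₗ[F] V} (hm : m ∈ X)
    (hP : ∀ u, ∃ u', m (t u s) = t u' s) : m ∈ TT t S.ten := by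
  have hfU := hX.finU
  have hfW := hX.finW
  have hfV := hX.finV
  have hfin := hX.fin
  have h2 := S.two
  obtain ⟨s', hyp⟩ := LieClassical.OrthTrans.exists_hyp S.ndW hs hs0
  have hmO := hX.le hm
  have hss : polar QW s s = 0 := polar_self_of_sing hs
  -- the action on `U ⊗ s`
  let α0 : U →ₗ[F] U := S.cw s' ∘ₗ (m : V →ₗ[F] V) ∘ₗ t.flip s
  have hα0 : ∀ u, m (t u s) = t (α0 u) s := by
    intro u
    obtain ⟨u', hu'⟩ := hP u
    have : α0 u = u' := by
      show S.cw s' (m (t u s)) = u'
      rw [hu', S.cw_t, hyp.pair', one_smul]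
    rw [this]; exact hu'
  have hinj : Function.Injective α0 := by
    intro x y hxy
    have h := hα0 x
    rw [hxy, ← hα0 y] at h
    exact t_left_inj S.ten hs0 (m.injective h)
  let α : U ≃ₗ[F] U := LinearEquiv.ofInjectiveEndo α0 hinj
  have hα : ∀ u, m (t u s) = t (α u) s := hα0
  have hmp : ∀ v, S.cw s v = 0 ↔ S.cw s (m v) = 0 := by
    intro v
    rw [S.cw_eq_zero_iff, S.cw_eq_zero_iff]
    constructor
    · intro h u
      have h1 := polar_map hmO v (t (α.symm u) s)
      rw [hα, LinearEquiv.apply_symm_apply, h] at h1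
      exact h1
    · intro h u
      rw [← polar_map hmO, hα]
      exact h _
  -- the map on `W`
  obtain ⟨u0, u1, hu⟩ := hX.sU
  obtain ⟨u0', hu0'⟩ := S.ndU.exists_polar_eq (x := α u0)
    (fun h => hu.left_ne ((LinearEquiv.map_eq_zero_iff α).1 h)) 1
  let β0 : W →ₗ[F] W := S.cu u0' ∘ₗ (m : V →ₗ[F] V) ∘ₗ t u0
  have hβ0 : ∀ x y, polar QW (β0 x) y = polar Q (m (t u0 x)) (t u0' y) := by
    intro x y
    rw [S.polar_cu]; rfl
  have hβs : ∀ x, polar QW s x = 0 → polar QW s (β0 x) = 0 := by
    intro x hx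
    rw [polar_comm, hβ0, S.polar_cw, (hmp _).1 (by rw [S.cw_t, hx, zero_smul]), polar_zero_left]
  have hβss : β0 s = s := by
    show S.cu u0' (m (t u0 s)) = s
    rw [hα, S.cu_t, polar_comm, hu0', one_smul]
  -- the key formula
  have key : ∀ u x, polar QW s x = 0 → ∃ u', m (t u x) = t (α u) (β0 x) + t u' s := by
    intro u x hx
    refine ⟨S.cw s' (m (t u x) - t (α u) (β0 x)), ?_⟩
    have h1 : m (t u x) - t (α u) (β0 x) = t (S.cw s' (m (t u x) - t (α u) (β0 x))) s := by
      refine mem_of_perp S hX.hG.nondeg hyp fun y hy => ?_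
      obtain ⟨w, hw, hwv⟩ := hX.contr hne hyp hm hα hmp hy
      have e1 : ∀ a, S.cw s (t a x) = 0 := fun a => by rw [S.cw_t, hx, zero_smul]
      rw [map_sub, hwv _ (e1 u), S.cw_t, S.cw_t, map_smul]
      have e2 : polar QW y (β0 x) = polar QW w x := by
        rw [polar_comm, hβ0, S.polar_cw, hwv _ (e1 u0), S.cw_t, map_smul, polar_smul_left, hu0', smul_eq_mul,
          mul_one]
      rw [e2, sub_self]
    rw [← h1]; abel
  -- `α` is a similarity
  have hbil : ∀ u u' x x', polar QW s x = 0 → polar QW s x' = 0 →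
      polar QU (α u) (α u') * polar QW (β0 x) (β0 x') = polar QU u u' * polar QW x x' := by
    intro u u' x x' hx hx'
    obtain ⟨a, ha⟩ := key u x hx
    obtain ⟨b, hb⟩ := key u' x' hx'
    rw [← S.pol, ← S.pol, ← polar_map hmO (t u x), ha, hb]
    simp only [polar_add_left, polar_add_right, S.pol, hβs x' hx', polar_comm QW (β0 x) s, hβs x hx, hss,
      mul_zero, add_zero]
  obtain ⟨w0, hw0s, hw0s', hw0⟩ := hX.exists_w0 hyp
  set ν := polar QW (β0 w0) (β0 w0) with hν
  have hww : polar QW w0 w0 ≠ 0 := by rw [polar_self']; exact mul_ne_zero h2 hw0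
  have h0 := hbil u0 u1 w0 w0 hw0s hw0s
  rw [hu.pair, one_mul, ← hν] at h0
  have hν0 : ν ≠ 0 := by
    intro h
    rw [h, mul_zero] at h0
    exact hww h0.symm
  set μ := polar QW w0 w0 * ν⁻¹ with hμ
  have hμ0 : μ ≠ 0 := mul_ne_zero hww (inv_ne_zero hν0)
  have hαsim : ∀ x y, polar QU (α x) (α y) = μ * polar QU x y := by
    intro x y
    have h := hbil x y w0 w0 hw0s hw0s
    rw [← hν] at h
    rw [hμ]
    field_simp
    linear_combination h
  have hβsim : ∀ x x', polar QW s x = 0 → polar QW s x' = 0 →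
      polar QW (β0 x) (β0 x') = μ⁻¹ * polar QW x x' := by
    intro x x' hx hx'
    have h := hbil u0 u1 x x' hx hx'
    rw [hαsim, hu.pair, mul_one, one_mul] at h
    rw [← h, ← mul_assoc, inv_mul_cancel₀ hμ0, one_mul]
  -- the map `h₂`
  let pr : W →ₗ[F] W := LinearMap.id - (polarBilin QW s').smulRight s - (polarBilin QW s).smulRight s'
  have hpr : ∀ x, pr x = x - polar QW s' x • s - polar QW s x • s' := fun x => rfl
  have hprs : ∀ x, polar QW s (pr x) = 0 := by
    intro x
    rw [hpr, polar_sub_right, polar_sub_right, polar_smul_right, polar_smul_right, hss, hyp.pair]; simp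
  have hprs' : ∀ x, polar QW s' (pr x) = 0 := by
    intro x
    rw [hpr, polar_sub_right, polar_sub_right, polar_smul_right, polar_smul_right, hyp.pair', hyp.polar_right]
    simp
  have hdec : ∀ x, x = polar QW s' x • s + polar QW s x • s' + pr x := by
    intro x
    rw [hpr]; abel
  let γ : W →ₗ[F] W := (polarBilin QW s').smulRight s + μ⁻¹ • (polarBilin QW s).smulRight s' +
    (β0 ∘ₗ pr - (polarBilin QW s' ∘ₗ β0 ∘ₗ pr).smulRight s)
  have hγ : ∀ x, γ x = polar QW s' x • s + μ⁻¹ • (polar QW s x • s') +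
    (β0 (pr x) - polar QW s' (β0 (pr x)) • s) := fun x => rfl
  have hγsim : ∀ x y, polar QW (γ x) (γ y) = μ⁻¹ * polar QW x y := by
    intro x y
    have hx1 := hβs _ (hprs x)
    have hy1 := hβs _ (hprs y)
    have hx2 : polar QW (β0 (pr x)) s = 0 := by rw [polar_comm]; exact hx1
    have hy2 : polar QW (pr y) s = 0 := by rw [polar_comm]; exact hprs y
    have hx3 : polar QW (pr x) s = 0 := by rw [polar_comm]; exact hprs x
    have hx4 : polar QW (pr x) s' = 0 := by rw [polar_comm]; exact hprs' x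
    have e1 : polar QW (γ x) (γ y) = μ⁻¹ * (polar QW s' x * polar QW s y + polar QW s x * polar QW s' y +
        polar QW (pr x) (pr y)) := by
      rw [hγ, hγ]
      simp only [polar_add_left, polar_add_right, polar_sub_left, polar_sub_right, polar_smul_left,
        polar_smul_right, hss, hyp.pair, hyp.pair', hyp.polar_right, hx1, hy1, hx2,
        hβsim _ _ (hprs x) (hprs y), smul_eq_mul, polar_comm QW (β0 (pr x)) s']
      ring
    have e2 : polar QW x y = polar QW s' x * polar QW s y + polar QW s x * polar QW s' y +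
        polar QW (pr x) (pr y) := by
      conv_lhs => rw [hdec x, hdec y]
      simp only [polar_add_left, polar_add_right, polar_smul_left,
        polar_smul_right, hss, hyp.pair, hyp.pair', hyp.polar_right, hprs, hprs', hx3, hx4, smul_eq_mul]
      ring
    rw [e1, e2]
  have hγinj : Function.Injective γ := by
    intro x y hxy
    rw [← sub_eq_zero]
    refine S.ndW _ fun z => ?_
    have h3 := hγsim (x - y) z
    rw [map_sub, hxy, sub_self, polar_zero_left] at h3
    exact (mul_eq_zero.1 h3.symm).resolve_left (inv_ne_zero hμ0)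
  let β : W ≃ₗ[F] W := LinearEquiv.ofInjectiveEndo γ hγinj
  have hβ : ∀ x, β x = γ x := fun x => rfl
  have hγs : γ s = s := by
    have : pr s = 0 := by rw [hpr, hyp.pair', hss]; simp
    rw [hγ, this, hyp.pair', hss]; simp
  -- the tensor element
  set h := tm S.ten α β with hh
  have hhO : h ∈ O Q := S.tm_mem_O_of_sim hμ0 hαsim hγsim
  have hhs : ∀ u, h (t u s) = m (t u s) := by
    intro u
    rw [hh, tm_apply, hα, hβ, hγs]
  have hhx : ∀ u x, polar QW s x = 0 → ∃ u', m (t u x) = h (t u x) + t u' s := by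
    intro u x hx
    obtain ⟨a, ha⟩ := key u x hx
    refine ⟨a + polar QW s' (β0 (pr x)) • α u, ?_⟩
    have e1 : β0 x = γ x + polar QW s' (β0 (pr x)) • s := by
      have e2 : x = polar QW s' x • s + pr x := by
        have := hdec x
        rw [hx, zero_smul, add_zero] at this
        exact this
      have e3 : β0 x = polar QW s' x • s + β0 (pr x) := by
        conv_lhs => rw [e2]
        rw [map_add, map_smul, hβss]
      rw [e3, hγ, hx]
      module
    rw [ha, hh, tm_apply, hβ, e1]
    simp only [map_add, map_smul, LinearMap.add_apply, LinearMap.smul_apply]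
    abel
  set n := h⁻¹ * m with hn
  have hni : ∀ v, n v = h⁻¹ (m v) := fun v => rfl
  have hih : ∀ v, h⁻¹ (h v) = v := fun v => LinearEquiv.symm_apply_apply h v
  have hns : ∀ u, n (t u s) = t u s := by
    intro u
    rw [hni, ← hhs, hih]
  have his : ∀ u, ∃ u', h⁻¹ (t u s) = t u' s := by
    intro u
    refine ⟨α.symm u, ?_⟩
    have : h (t (α.symm u) s) = t u s := by rw [hhs, hα, LinearEquiv.apply_symm_apply]
    rw [← this, hih]
  have hnx : ∀ u x, polar QW s x = 0 → ∃ u', n (t u x) = t u x + t u' s := by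
    intro u x hx
    obtain ⟨a, ha⟩ := hhx u x hx
    obtain ⟨b, hb⟩ := his a
    exact ⟨b, by rw [hni, ha, map_add, hih, hb]⟩
  have hnO : n ∈ O Q := (O Q).mul_mem ((O Q).inv_mem hhO) hmO
  -- `n` is unipotent
  have hn3 : ((n : V →ₗ[F] V) - 1 : Module.End F V) ^ 3 = 0 := by
    set N : Module.End F V := (n : V →ₗ[F] V) - 1 with hN
    have hNa : ∀ v, N v = n v - v := fun v => rfl
    have h5 : ∀ v, S.cw s (N v) = 0 := by
      intro v
      rw [S.cw_eq_zero_iff]
      intro u
      rw [hNa, polar_sub_left]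
      have := polar_map hnO v (t u s)
      rw [hns] at this
      rw [this, sub_self]
    have h6 : ∀ v, S.cw s v = 0 → ∃ u, N v = t u s := by
      -- linearity: `N v - t (..) s` vanishes on `U ⊗ s^⊥`
      have h7 : ∀ v, N v = t (S.cw s' (N v)) s + (N (t (S.cw s v) s') - t (S.cw s' (N (t (S.cw s v) s'))) s) := by
        intro v
        have : N = t.flip s ∘ₗ S.cw s' ∘ₗ N + (N - t.flip s ∘ₗ S.cw s' ∘ₗ N) ∘ₗ t.flip s' ∘ₗ S.cw s := by
          refine ext_t S.ten fun u z => ?_
          simp only [LinearMap.add_apply, LinearMap.sub_apply, LinearMap.comp_apply, LinearMap.flip_apply,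
            S.cw_t]
          set β := polar QW s z with hβ
          have hz0 : polar QW s (z - β • s') = 0 := by rw [polar_sub_right, polar_smul_right, hyp.pair, hβ]; simp
          obtain ⟨a, ha⟩ := hnx u _ hz0
          have e1 : N (t u (z - β • s')) = t a s := by rw [hNa, ha, add_sub_cancel_left]
          have e2 : S.cw s' (N (t u (z - β • s'))) = a := by rw [e1, S.cw_t, hyp.pair', one_smul]
          have e3 : t u z = t u (z - β • s') + β • t u s' := by rw [map_sub, map_smul]; abel
          rw [e3, map_add N, map_add (S.cw s'), e2, e1]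
          simp only [map_smul, LinearMap.smul_apply, map_add, LinearMap.add_apply]
          module
        exact LinearMap.congr_fun this v
      intro v hv
      refine ⟨S.cw s' (N v), ?_⟩
      conv_lhs => rw [h7 v]
      rw [hv]
      simp
    ext v
    rw [pow_succ, pow_two]
    show N (N (N v)) = 0
    obtain ⟨u, hu⟩ := h6 (N v) (h5 v)
    rw [hu, hNa, hns, sub_self]
  have hnE : n ∈ E Q := mem_E_of_unip hX.hG h2 hnO hn3
  have hhE : h ∈ E Q := by
    have : h = m * n⁻¹ := by rw [hn]; group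
    rw [this]
    exact (E Q).mul_mem (hX.leE hm) ((E Q).inv_mem hnE)
  have hhX : h ∈ X := hX.ge h (tm_mem_TT _ _ _) hhE
  have hnX : n ∈ X := X.mul_mem (X.inv_mem hhX) hm
  obtain ⟨x, hx, he⟩ := hX.rad_le hne hs hs0 hnX hns hnx
  have : m = h * n := by rw [hn]; group
  rw [this, he]
  exact (TT t S.ten).mul_mem (tm_mem_TT _ _ _) (tm_mem_TT _ _ _)

end Ov3

end Cfsg.Agent.H932.Three
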