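import Cfsg.Agent.H932.ThreeStab

/-!
`O₃ ⊗ O₄⁻` in `Ω₁₂⁻(q)`, `q ≥ 5` odd: the elements `1 ⊗ siegel s w` are TI in a proper overgroup.
-/

set_option autoImplicit false
set_option linter.unusedSimpArgs false
set_option linter.unusedSectionVars false

namespace Cfsg.Agent.H932.Three

open QuadraticMap hiding proj
open Cfsg.Agent.LieClassical.OrthCore Cfsg.Agent.LieClassical.OrthTrans Cfsg.Agent.H883.Root
open Cfsg.Agent Cfsg.Agent.H882.Ten

variable {F : Type*} {U : Type*} {W : Type*} {V : Type*} [Field F] [AddCommGroup U] [Module F U]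
  [AddCommGroup W] [Module F W] [AddCommGroup V] [Module F V]
  {t : U →ₗ[F] W →ₗ[F] V} {QU : QuadraticForm F U} {QW : QuadraticForm F W} {Q : QuadraticForm F V}
  {X : Subgroup (V ≃ₗ[F] V)} {S : TSt t QU QW Q}

/-- If `k ⊗ l = 1` then `k` and `l` are inverse scalars. -/
theorem scalars_of_tm_eq_one (ht : IsTensorProduct t) [Nontrivial U] [Nontrivial W] {k : U ≃ₗ[F] U}
    {l : W ≃ₗ[F] W} (h : tm ht k l = 1) :
    ∃ c : F, c ≠ 0 ∧ (∀ u, k u = c • u) ∧ ∀ w, l w = c⁻¹ • w := by
  have hkl : ∀ u w, t (k u) (l w) = t u w := by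
    intro u w
    rw [← tm_apply ht, h]; rfl
  obtain ⟨w0, hw0⟩ := exists_ne (0 : W)
  obtain ⟨u0, hu0⟩ := exists_ne (0 : U)
  have hlw0 : l w0 ≠ 0 := fun h0 => hw0 ((LinearEquiv.map_eq_zero_iff l).1 h0)
  obtain ⟨φ, hφ⟩ := Module.Projective.exists_dual_ne_zero F hlw0
  have hk : ∀ u, k u = (φ (l w0))⁻¹ • (φ w0 • u) := by
    intro u
    have h1 := congrArg (cW ht φ) (hkl u w0)
    rw [cW_apply, cW_apply] at h1
    rw [← h1, smul_smul, inv_mul_cancel₀ hφ, one_smul]
  set c := (φ (l w0))⁻¹ * φ w0 with hc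
  have hkc : ∀ u, k u = c • u := by
    intro u
    rw [hk, smul_smul]
  have hc0 : c ≠ 0 := by
    intro h0
    apply hu0
    have := hkc u0
    rw [h0, zero_smul] at this
    exact (LinearEquiv.map_eq_zero_iff k).1 this
  refine ⟨c, hc0, hkc, fun w => ?_⟩
  have h1 := hkl u0 w
  rw [hkc, map_smul, LinearMap.smul_apply] at h1
  have h2 : t u0 (c • l w) = t u0 w := by rw [map_smul]; exact h1
  have h3 := t_right_inj ht hu0 h2
  calc l w = c⁻¹ • (c • l w) := by rw [smul_smul, inv_mul_cancel₀ hc0, one_smul]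
    _ = c⁻¹ • w := by rw [h3]

/-- Rescaling. -/
theorem tm_rescale (ht : IsTensorProduct t) (k : U ≃ₗ[F] U) (l : W ≃ₗ[F] W) {c : F} (hc : c ≠ 0) :
    tm ht (k * LinearEquiv.smulOfNeZero F U c⁻¹ (inv_ne_zero hc)) (l * LinearEquiv.smulOfNeZero F W c hc) =
      tm ht k l := by
  refine ext_t' ht fun u w => ?_
  rw [tm_apply, tm_apply]
  show t (k (c⁻¹ • u)) (l (c • w)) = _
  rw [map_smul, map_smul, map_smul, map_smul, LinearMap.smul_apply, smul_smul, mul_inv_cancel₀ hc, one_smul]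

theorem mul_smul_pow {Y : Type*} [AddCommGroup Y] [Module F Y] (k : Y ≃ₗ[F] Y) {c : F} (hc : c ≠ 0) (n : ℕ)
    (u : Y) : ((k * LinearEquiv.smulOfNeZero F Y c hc) ^ n) u = c ^ n • (k ^ n) u := by
  induction n with
  | zero => simp
  | succ n ih =>
    rw [pow_succ', pow_succ', pow_succ']
    show k (c • ((k * LinearEquiv.smulOfNeZero F Y c hc) ^ n) u) = (c * c ^ n) • k ((k ^ n) u)
    rw [ih, map_smul, map_smul, smul_smul]

theorem tm_pow (ht : IsTensorProduct t) (k : U ≃ₗ[F] U) (l : W ≃ₗ[F] W) (n : ℕ) :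
    tm ht k l ^ n = tm ht (k ^ n) (l ^ n) := by
  induction n with
  | zero => rw [pow_zero, pow_zero, pow_zero, tm_one]
  | succ n ih => rw [pow_succ, ih, ← tm_mul, pow_succ, pow_succ]

/-- A `p`-element of the form `k ⊗ l` can be written with `k ^ p = 1`, `l ^ p = 1`. -/
theorem exists_tm_pow_eq_one [Finite F] (ht : IsTensorProduct t) [Nontrivial U] [Nontrivial W] {p : ℕ}
    [hp : Fact p.Prime] [CharP F p] {k : U ≃ₗ[F] U} {l : W ≃ₗ[F] W} (h : tm ht k l ^ p = 1) :
    ∃ (k' : U ≃ₗ[F] U) (l' : W ≃ₗ[F] W), tm ht k l = tm ht k' l' ∧ k' ^ p = 1 ∧ l' ^ p = 1 := by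
  rw [tm_pow] at h
  obtain ⟨c, hc0, hk, hl⟩ := scalars_of_tm_eq_one ht h
  have hbij : Function.Surjective (frobenius F p) :=
    Finite.surjective_of_injective (frobenius_inj F p)
  obtain ⟨b, hb⟩ := hbij c
  have hb' : b ^ p = c := hb
  have hb0 : b ≠ 0 := by
    rintro rfl
    rw [zero_pow hp.out.ne_zero] at hb'
    exact hc0 hb'.symm
  refine ⟨_, _, (tm_rescale ht k l hb0).symm, ?_, ?_⟩
  · ext u
    rw [mul_smul_pow, hk, smul_smul, inv_pow, hb', inv_mul_cancel₀ hc0, one_smul]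
    rfl
  · ext w
    rw [mul_smul_pow, hl, smul_smul, hb', mul_inv_cancel₀ hc0, one_smul]
    rfl

theorem sim_pow {Y : Type*} [AddCommGroup Y] [Module F Y] {R : QuadraticForm F Y} {k : Y ≃ₗ[F] Y} {c : F}
    (h : ∀ x y, polar R (k x) (k y) = c * polar R x y) (n : ℕ) (x y : Y) :
    polar R ((k ^ n) x) ((k ^ n) y) = c ^ n * polar R x y := by
  induction n with
  | zero => simp
  | succ n ih =>
    rw [pow_succ', pow_succ']
    show polar R (k ((k ^ n) x)) (k ((k ^ n) y)) = _
    rw [h, ih, mul_assoc]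

/-- A similarity of order dividing the characteristic is an isometry. -/
theorem isometry_of_pow [Finite F] {Y : Type*} [AddCommGroup Y] [Module F Y] {R : QuadraticForm F Y}
    (h2 : (2 : F) ≠ 0) (hR : Nondeg R)
    [Nontrivial Y] {p : ℕ} [hp : Fact p.Prime] [CharP F p] {k : Y ≃ₗ[F] Y} {c : F}
    (h : ∀ x y, polar R (k x) (k y) = c * polar R x y) (hk : k ^ p = 1) : c = 1 ∧ k ∈ O R := by
  obtain ⟨x0, hx0⟩ := exists_ne (0 : Y)
  obtain ⟨x1, hx1⟩ := hR.exists_polar_eq hx0 1
  have h1 := sim_pow h p x0 x1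
  rw [hk] at h1
  have h3 : c ^ p = 1 := by
    rw [hx1, mul_one] at h1
    have h4 : polar R x0 x1 = c ^ p := h1
    rw [← h4, hx1]
  have hc : c = 1 := by
    apply frobenius_inj F p
    show c ^ p = 1 ^ p
    rw [h3, one_pow]
  refine ⟨hc, mem_O_of_polar h2 fun x y => by rw [h, hc, one_mul]⟩

namespace Ov3

variable (hX : Ov3 S X)

include hX

/-- square of `siegel - 1` -/
theorem siegel_sq {s w : W} (hs : QW s = 0) (hw : polar QW s w = 0) (v : V) :
    rW S.ten (siegel QW s w hs hw) (rW S.ten (siegel QW s w hs hw) v - v) -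
      (rW S.ten (siegel QW s w hs hw) v - v) = (-(2 * QW w)) • t (S.cw s v) s := by
  have hss : polar QW s s = 0 := polar_self_of_sing hs
  have hws : polar QW w s = 0 := by rw [polar_comm]; exact hw
  set d := rW S.ten (siegel QW s w hs hw) with hd
  have : ((d : V →ₗ[F] V) - LinearMap.id) ∘ₗ ((d : V →ₗ[F] V) - LinearMap.id) =
      (-(2 * QW w)) • (t.flip s ∘ₗ S.cw s) := by
    refine ext_t S.ten fun u x => ?_
    simp only [LinearMap.comp_apply, LinearMap.sub_apply, LinearMap.id_apply, LinearEquiv.coe_coe,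
      LinearMap.smul_apply, LinearMap.flip_apply, S.cw_t]
    have e1 : d (t u x) - t u x = t u (polar QW s x • w - polar QW w x • s - (QW w * polar QW s x) • s) := by
      rw [hd, rW_apply, ← map_sub, siegel_apply]
      congr 1
      abel
    rw [e1, hd, rW_apply, ← map_sub, siegel_apply]
    simp only [polar_sub_right, polar_smul_right, hw, hss, hws, polar_self' w, smul_eq_mul]
    rw [show t (polar QW s x • u) s = polar QW s x • t u s by rw [map_smul, LinearMap.smul_apply], smul_smul,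
      ← map_smul]
    congr 1
    module
  exact LinearMap.congr_fun this v

/-- **TI.** -/
theorem ti (hne : ¬ E Q ≤ X) {s w : W} (hs : QW s = 0) (hs0 : s ≠ 0) (hw : polar QW s w = 0) (hwn : QW w ≠ 0)
    {g : V ≃ₗ[F] V} (hg : g ∈ X)
    (h : g * rW S.ten (siegel QW s w hs hw) * g⁻¹ ∈ TT t S.ten) : g ∈ TT t S.ten := by
  have hfU := hX.finU
  have hfW := hX.finW
  have hfV := hX.finV
  have hfin := hX.fin
  have h2 := S.two
  have hgO := hX.le hg
  obtain ⟨s', hyp⟩ := LieClassical.OrthTrans.exists_hyp S.ndW hs hs0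
  have hntW : Nontrivial W := ⟨s, 0, hs0⟩
  obtain ⟨u0, u1, hu⟩ := hX.sU
  have hntU : Nontrivial U := ⟨u0, 0, hu.left_ne⟩
  have hntV : Nontrivial V := ⟨t u0 s, 0, t_ne S.ten hu.left_ne hs0⟩
  obtain ⟨p, hp⟩ := CharP.exists F
  have hpp : Fact p.Prime := ⟨(CharP.char_is_prime_or_zero F p).resolve_right
    (fun h => (CharP.char_ne_zero_of_finite F p) h)⟩
  obtain ⟨k0, hk0⟩ := odd_of_two_ne (p := p) h2
  have hp3 : 3 ≤ p := by
    have := hpp.out.two_le
    omega
  set d := rW S.ten (siegel QW s w hs hw) with hd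
  set κ : F := -(2 * QW w) with hκ
  have hκ0 : κ ≠ 0 := neg_ne_zero.2 (mul_ne_zero h2 hwn)
  have hd2 : ∀ v, d (d v - v) - (d v - v) = κ • t (S.cw s v) s := fun v => hX.siegel_sq hs hw v
  have hss : polar QW s s = 0 := polar_self_of_sing hs
  have hws : polar QW w s = 0 := by rw [polar_comm]; exact hw
  have hds : ∀ u, d (t u s) = t u s := by
    intro u
    rw [hd, rW_apply, siegel_apply, hss, hws]
    simp
  -- the conjugate
  set a : V ≃ₗ[F] V := g * d * g⁻¹ with ha
  have hgi : ∀ v, g (g⁻¹ v) = v := fun v => LinearEquiv.apply_symm_apply g v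
  have hig : ∀ v, g⁻¹ (g v) = v := fun v => LinearEquiv.symm_apply_apply g v
  have hav : ∀ v, a v = g (d (g⁻¹ v)) := fun v => rfl
  have ha2 : ∀ v, a (a v - v) - (a v - v) = κ • g (t (S.cw s (g⁻¹ v)) s) := by
    intro v
    have e1 : a v - v = g (d (g⁻¹ v) - g⁻¹ v) := by rw [hav, map_sub, hgi]
    have e2 : a (a v - v) = g (d (d (g⁻¹ v) - g⁻¹ v)) := by rw [e1, hav, hig]
    rw [e2, e1, ← map_sub, hd2, map_smul]
  have ha3 : ((a : V →ₗ[F] V) - 1 : Module.End F V) ^ 3 = 0 := by
    ext v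
    rw [pow_succ', pow_two]
    show a (a (a v - v) - (a v - v)) - (a (a v - v) - (a v - v)) = 0
    rw [ha2 v, map_smul, hav, hig, hds, sub_self]
  have hap : a ^ p = 1 := by
    rw [pow_eq_one_iff]
    obtain ⟨m, hm⟩ := Nat.exists_eq_add_of_le hp3
    rw [hm, pow_add, ha3, zero_mul]
  obtain ⟨k, l, hkl⟩ := mem_TT.1 h
  rw [hkl] at hap
  obtain ⟨k', l', hkl', hk', hl'⟩ := exists_tm_pow_eq_one S.ten hap
  have haT : a = tm S.ten k' l' := by rw [hkl, hkl']
  have haO : a ∈ O Q := (O Q).mul_mem ((O Q).mul_mem hgO (S.rW_mem_O (siegel_mem_O _ _))) ((O Q).inv_mem hgO)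
  obtain ⟨c, hc0, hkc, hlc⟩ := S.sim_of_mem_O (k := k') (l := l') (by rw [← haT]; exact haO)
  obtain ⟨hc1, hk'O⟩ := isometry_of_pow h2 S.ndU hkc hk'
  obtain ⟨-, hl'O⟩ := isometry_of_pow h2 S.ndW hlc hl'
  have hat : ∀ u x, a (t u x) = t (k' u) (l' x) := fun u x => by rw [haT, tm_apply]
  -- `k' = 1`
  set N : Module.End F U := (k' : U →ₗ[F] U) - 1 with hN
  have hNa : ∀ u, N u = k' u - u := fun u => rfl
  have hN3 : ∀ u, N (N (N u)) = 0 := by
    have hNp : N ^ p = 0 := (pow_eq_one_iff k').1 hk'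
    have h3 := Module.End.ker_pow_le_ker_pow_finrank N p
    rw [hNp, hX.d3] at h3
    intro u
    have h4 : u ∈ LinearMap.ker (N ^ 3) := h3 (by rw [LinearMap.mem_ker]; rfl)
    rw [LinearMap.mem_ker, pow_succ, pow_two] at h4
    exact h4
  have hN2 : ∀ u, N (N u) = 0 := by
    intro f
    by_contra hf
    have hnot : N (N f) ∉ Submodule.span F {f, N f} := by
      intro hmem
      obtain ⟨x, y, hxy⟩ := Submodule.mem_span_pair.1 hmem
      have e1 := congrArg (fun z => N (N z)) hxy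
      simp only [map_add, map_smul, hN3, smul_zero, add_zero, map_zero] at e1
      have hx0 : x = 0 := (smul_eq_zero.1 e1).resolve_right hf
      rw [hx0, zero_smul, zero_add] at hxy
      have e2 := congrArg N hxy
      rw [map_smul, hN3] at e2
      have hy0 : y = 0 := (smul_eq_zero.1 e2).resolve_right hf
      rw [hy0, zero_smul] at hxy
      exact hf hxy.symm
    obtain ⟨φ, hφ, hφ'⟩ := Submodule.exists_le_ker_of_notMem hnot
    have hφf : φ f = 0 := hφ' (Submodule.subset_span (by simp))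
    have hφN : φ (N f) = 0 := hφ' (Submodule.subset_span (by simp))
    have hinj : Function.Injective (S.cw s ∘ₗ (g⁻¹ : V ≃ₗ[F] V).toLinearMap ∘ₗ t f) := by
      rw [← LinearMap.ker_eq_bot, LinearMap.ker_eq_bot']
      intro x hx
      have hx' : S.cw s (g⁻¹ (t f x)) = 0 := hx
      have e1 := ha2 (t f x)
      rw [hx', map_zero, LinearMap.zero_apply, map_zero, smul_zero] at e1
      have e2 : a (a (t f x) - t f x) - (a (t f x) - t f x) =
          t (k' (k' f)) (l' (l' x)) - t (k' f) (l' x) - (t (k' f) (l' x) - t f x) := by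
        rw [map_sub, hat, hat]
      rw [e2] at e1
      have e3 := congrArg (cU S.ten φ) e1
      simp only [map_sub, cU_apply, map_zero] at e3
      have f1 : φ (k' f) = 0 := by
        have : k' f = N f + f := by rw [hNa]; abel
        rw [this, map_add, hφN, hφf, add_zero]
      have f2 : φ (k' (k' f)) = φ (N (N f)) := by
        have : k' (k' f) = N (N f) + N f + N f + f := by
          rw [hNa, hNa, map_sub]; abel
        rw [this]
        simp only [map_add, hφN, hφf, add_zero]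
      rw [f1, f2, hφf] at e3
      simp only [zero_smul, sub_zero] at e3
      have f3 := (smul_eq_zero.1 e3).resolve_left hφ
      exact (LinearEquiv.map_eq_zero_iff l').1 ((LinearEquiv.map_eq_zero_iff l').1 f3)
    have := LinearMap.finrank_le_finrank_of_injective hinj
    rw [hX.d3, hX.d4] at this
    omega
  have hk1 : k' = 1 := eq_one_of_sq h2 S.ndU (fun u v hu hv huv hu0 => iso_three hX.d3 S.ndU hu hv huv hu0) hk'O
    (fun x => hN2 x)
  -- the square of `l' - 1`
  set L : Module.End F W := (l' : W →ₗ[F] W) - 1 with hL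
  have hLa : ∀ x, L x = l' x - x := fun x => rfl
  have hat' : ∀ u x, a (t u x) = t u (l' x) := fun u x => by rw [hat, hk1]; rfl
  have haL : ∀ u x, a (t u x) - t u x = t u (L x) := by
    intro u x
    rw [hat', hLa, map_sub]
  have haL2 : ∀ u x, a (a (t u x) - t u x) - (a (t u x) - t u x) = t u (L (L x)) := by
    intro u x
    rw [haL, haL]
  have hL3 : (L : Module.End F W) ^ 3 = 0 := by
    ext x
    have e1 := LinearMap.congr_fun ha3 (t u0 x)
    rw [pow_succ, pow_two] at e1 ⊢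
    have e2 : (((a : V →ₗ[F] V) - 1 : Module.End F V) * ((a : V →ₗ[F] V) - 1) * ((a : V →ₗ[F] V) - 1)) (t u0 x)
        = t u0 (L (L (L x))) := by
      show a (a (a (t u0 x) - t u0 x) - (a (t u0 x) - t u0 x)) - (a (a (t u0 x) - t u0 x) -
        (a (t u0 x) - t u0 x)) = _
      rw [haL, haL, haL]
    rw [e2] at e1
    show L (L (L x)) = 0
    rcases eq_or_ne (L (L (L x))) 0 with h0 | h0
    · exact h0
    · exact absurd (eq_zero_of_t S.ten e1 h0) hu.left_ne
  have hLt : ∀ x y, polar QW (L (L x)) (L (L y)) = 0 := by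
    intro x y
    have := polar_sq_sub_one hl'O hL3 x y
    rw [pow_two] at this
    exact this
  obtain ⟨x0, hx0⟩ : ∃ x0, L (L x0) ≠ 0 := by
    by_contra hcon
    push Not at hcon
    -- `(a - 1)² = 0`
    have e1 : ∀ v, a (a v - v) - (a v - v) = 0 := by
      intro v
      induction v using S.ten.inductionOn with
      | zero => simp
      | tmul u x => rw [haL2, hcon, map_zero]
      | add x y hx hy =>
        have : a (a (x + y) - (x + y)) - (a (x + y) - (x + y)) =
          (a (a x - x) - (a x - x)) + (a (a y - y) - (a y - y)) := by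
          simp only [map_add, map_sub]; abel
        rw [this, hx, hy, add_zero]
    have e2 := ha2 (g (t u0 s'))
    rw [e1, hig, S.cw_t, hyp.pair, one_smul] at e2
    have e3 := (smul_eq_zero.1 e2.symm).resolve_left hκ0
    exact t_ne S.ten hu.left_ne hs0 ((LinearEquiv.map_eq_zero_iff g).1 e3)
  set s1 := L (L x0) with hs1
  have hs1s : QW s1 = 0 := by
    rw [Q_zero_iff h2]
    exact hLt x0 x0
  have hmul : ∀ x, ∃ c : F, L (L x) = c • s1 := by
    intro x
    exact hX.an s1 (L (L x)) hs1s hx0 (hLt x0 x) (by rw [Q_zero_iff h2]; exact hLt x x)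
  -- `g` maps `U ⊗ s` to `U ⊗ s1`
  have himg : ∀ v, ∃ u', a (a v - v) - (a v - v) = t u' s1 := by
    intro v
    induction v using S.ten.inductionOn with
    | zero => exact ⟨0, by simp⟩
    | tmul u x =>
      obtain ⟨c, hc⟩ := hmul x
      exact ⟨c • u, by rw [haL2, hc, map_smul, map_smul, LinearMap.smul_apply]⟩
    | add x y hx hy =>
      obtain ⟨u1, h1⟩ := hx
      obtain ⟨u2, h2⟩ := hy
      refine ⟨u1 + u2, ?_⟩
      have : a (a (x + y) - (x + y)) - (a (x + y) - (x + y)) =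
        (a (a x - x) - (a x - x)) + (a (a y - y) - (a y - y)) := by
        simp only [map_add, map_sub]; abel
      rw [this, h1, h2, map_add, LinearMap.add_apply]
  have hgs : ∀ u, ∃ u', g (t u s) = t u' s1 := by
    intro u
    have e2 := ha2 (g (t u s'))
    rw [hig, S.cw_t, hyp.pair, one_smul] at e2
    obtain ⟨u', hu'⟩ := himg (g (t u s'))
    refine ⟨κ⁻¹ • u', ?_⟩
    rw [map_smul, LinearMap.smul_apply, ← hu', e2, smul_smul, inv_mul_cancel₀ hκ0, one_smul]
  obtain ⟨r, hr, hrs⟩ := hX.tr hs1s hs hx0 hs0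
  have hrX := hX.rW r hr
  have h5 := hX.stab hne hs hs0 (X.mul_mem hrX hg) (by
    intro u
    obtain ⟨u', hu'⟩ := hgs u
    refine ⟨u', ?_⟩
    show Cfsg.Agent.H882.Ten.rW S.ten r (g (t u s)) = _
    rw [hu', rW_apply, hrs])
  have h6 : g = (Cfsg.Agent.H882.Ten.rW S.ten r)⁻¹ * (Cfsg.Agent.H882.Ten.rW S.ten r * g) := by group
  rw [h6]
  exact (TT t S.ten).mul_mem ((TT t S.ten).inv_mem (tm_mem_TT _ _ _)) h5

end Ov3

end Cfsg.Agent.H932.Three
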